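import Mathlib
import Cfsg.Prelude.Def_OddOrderLocal

set_option autoImplicit false

/-!
helper55: interface for S1353 (Bender–Glauberman: in the standard factorisation `M = K U M_σ`
no non-identity element of `K` centralizes a non-identity element of `U`).

Route.  Suppose `k ∈ K`, `u ∈ U` commute, both of prime order (`PrimeRed`), `p = |k| ∈ τ₁(M)`
(`Tau1`), `r = |u|`.  By S1428 `C_{M_σ}(k) ≤ C_{M_σ}(u)`, so `r ∈ τ₂(M)`; `A ≤ E = K ⊔ U`
elementary abelian of order `r²`, `X = ⟨u⟩ = C_A(k)` (`Setup`, structure `Cfg`).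
* Sylow `r`-subgroups of `G` abelian (`CaseAb`): `N_G(A)/C_G(A)` is abelian, so `N_G(A)`
  normalizes `C_A(k) = X`, `N_G(A) ≤ N_G(X) ≤ M`, against S1418.
* Sylow `r`-subgroups nonabelian (`CaseNonab`): S1419 gives `X = C_A(M_σ)` (`A0`); `Z = [A,k]`
  (`Z0`) is `K`-invariant, `C_{M_σ}(Z) = 1`, `K` acts faithfully on `Z` and in a prime manner on
  `M_σ` (`PrimAct`), so `|K| = p` by S1446 (`KPrime`); `τ₁(M) ⊆ κ(M)` (`Tau1Kappa`), hence every
  element of prime power order of `E` centralizes `X`, `M ≤ C_G(X)` (`ECent`).  Take `H` maximal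
  over `N_G(A)` (`HEx`, `PNotSigma`), a `k`-invariant Sylow `r`-subgroup `S ≥ A` of `G` (`SEx`), a
  complement `V ∋ k` of `S` in `N_G(S)` (`VEx`); `S` is narrow (`NarrowS`), so `V/C_V(S)` is
  abelian (`VAb`), `V` normalizes `C_S(k)`, whose elements of order `r` lie in `X` (`QFix`), so
  `V ≤ N_G(X) = M ≤ C_G(X)`; `S` has a normal subgroup of index `r` not containing `X`
  (`NExLo`, `NExHi`), so `[S,V] ≠ S` (`Avg`), against S1411.
-/

namespace Cfsg.Agent.Lib.Helper55.S53Stmt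

universe u

/-- The configuration reached after the easy reductions. -/
structure Cfg {G : Type u} [Group G] (M K U A X : Subgroup G) (k : G) (p r : ℕ) : Prop where
  coatom : IsCoatom M
  dec : Cfsg.IsSigmaDecomposition M K U
  pp : p.Prime
  rp : r.Prime
  kK : k ∈ K
  ko : orderOf k = p
  p1 : p ∈ Cfsg.tau1 M
  r2 : r ∈ Cfsg.tau2 M
  AE : A ≤ K ⊔ U
  Ael : Cfsg.IsElementaryAbelian r A
  Ac : Nat.card A = r ^ 2
  XA : X ≤ A
  Xc : Nat.card X = r
  fix : A ⊓ Subgroup.centralizer ({k} : Set G) = X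
  Ck : Cfsg.sigmaCore M ⊓ Subgroup.centralizer ({k} : Set G) ≠ ⊥
  CX : Cfsg.sigmaCore M ⊓ Subgroup.centralizer ({k} : Set G) ≤ Subgroup.centralizer (X : Set G)

/-- PRIME (pure): commuting non-identity elements of `K` and `U` have commuting powers of prime
order. -/
def PrimeRed : Prop :=
  ∀ {G : Type u} [Group G] [Finite G] (K U : Subgroup G) (k u : G),
    k ∈ K → k ≠ 1 → u ∈ U → u ≠ 1 → k * u = u * k →
    ∃ k₁ ∈ K, ∃ u₁ ∈ U, (orderOf k₁).Prime ∧ (orderOf u₁).Prime ∧ k₁ * u₁ = u₁ * k₁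

/-- TAU1: the primes of `|K|` are in `τ₁(M)` (`U M_σ ⊴ M` with cyclic quotient, so
`M' ≤ U M_σ`, whose order is prime to `|K|`). -/
def Tau1 : Prop :=
  ∀ {G : Type u} [Group G] [Finite G], Cfsg.IsMinSimpleOddOrder G →
  ∀ (M K U : Subgroup G), IsCoatom M → Cfsg.IsSigmaDecomposition M K U →
    ∀ q : ℕ, q.Prime → q ∣ Nat.card K → q ∈ Cfsg.tau1 M

/-- SETUP: the configuration `Cfg` exists. -/
def Setup : Prop :=
  ∀ {G : Type u} [Group G] [Finite G], Cfsg.IsMinSimpleOddOrder G →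
  ∀ (M K U : Subgroup G), IsCoatom M → Cfsg.IsSigmaDecomposition M K U →
  ∀ (k u : G), k ∈ K → (orderOf k).Prime → u ∈ U → (orderOf u).Prime → k * u = u * k →
    ∃ A : Subgroup G, Cfg M K U A (Subgroup.zpowers u) k (orderOf k) (orderOf u)

/-- CASEAB: the configuration is impossible when the Sylow `r`-subgroups of `G` are abelian. -/
def CaseAb : Prop :=
  ∀ {G : Type u} [Group G] [Finite G], Cfsg.IsMinSimpleOddOrder G →
  ∀ (M K U A X : Subgroup G) (k : G) (p r : ℕ), Cfg M K U A X k p r →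
    (∃ S : Sylow r G, IsMulCommutative (S : Subgroup G)) → False

/-- A0: in the nonabelian case `X = C_A(M_σ)`: `M_σ` centralizes `X`, `K ⊔ U` normalizes `X`,
and every other subgroup of order `r` of `A` acts regularly on `M_σ` (S1419). -/
def A0 : Prop :=
  ∀ {G : Type u} [Group G] [Finite G], Cfsg.IsMinSimpleOddOrder G →
  ∀ (M K U A X : Subgroup G) (k : G) (p r : ℕ), Cfg M K U A X k p r →
    (∀ S : Sylow r G, ¬ IsMulCommutative (S : Subgroup G)) →
    Cfsg.sigmaCore M ≤ Subgroup.centralizer (X : Set G) ∧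
    K ⊔ U ≤ Subgroup.normalizer (X : Set G) ∧
    ∀ Y : Subgroup G, Y ≤ A → Nat.card Y = r → Y ≠ X →
      Cfsg.sigmaCore M ⊓ Subgroup.centralizer (Y : Set G) = ⊥

/-- Z0 (pure): `Z = [A, k]` is a subgroup of order `r` of `A`, different from `X = C_A(k)`,
on which `k` acts without fixed points, normalized by everything normalizing `A` and commuting
with `k`. -/
def Z0 : Prop :=
  ∀ {G : Type u} [Group G] [Finite G] (A X : Subgroup G) (k : G) (p r : ℕ),
    p.Prime → r.Prime → p ≠ r → orderOf k = p → Cfsg.IsElementaryAbelian r A →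
    Nat.card A = r ^ 2 → k ∈ Subgroup.normalizer (A : Set G) → Nat.card X = r →
    A ⊓ Subgroup.centralizer ({k} : Set G) = X →
    ∃ Z : Subgroup G, Z ≤ A ∧ Nat.card Z = r ∧ Z ≠ X ∧
      Z ⊓ Subgroup.centralizer ({k} : Set G) = ⊥ ∧
      ∀ g : G, g ∈ Subgroup.normalizer (A : Set G) → g * k = k * g →
        g ∈ Subgroup.normalizer (Z : Set G)

/-- PRIMACT: `K` acts in a prime manner on `M_σ` (S1427 + S1428 + `Tau1`). -/
def PrimAct : Prop :=
  ∀ {G : Type u} [Group G] [Finite G], Cfsg.IsMinSimpleOddOrder G →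
  ∀ (M K U : Subgroup G), IsCoatom M → Cfsg.IsSigmaDecomposition M K U →
    ∀ x ∈ K, x ≠ 1 → Cfsg.sigmaCore M ⊓ Subgroup.centralizer ({x} : Set G) =
      Cfsg.sigmaCore M ⊓ Subgroup.centralizer (K : Set G)

/-- KPRIME: in the nonabelian case `K` has prime order (S1446 for the Frobenius group `Z K`). -/
def KPrime : Prop :=
  ∀ {G : Type u} [Group G] [Finite G], Cfsg.IsMinSimpleOddOrder G →
  ∀ (M K U A X : Subgroup G) (k : G) (p r : ℕ), Cfg M K U A X k p r →
    (∀ S : Sylow r G, ¬ IsMulCommutative (S : Subgroup G)) → Nat.card K = p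

/-- TAU1KAPPA: if some element of order `p ∈ τ₁(M)` of a complement `E` is not regular on
`M_σ`, then `τ₁(M) ⊆ κ(M)`. -/
def Tau1Kappa : Prop :=
  ∀ {G : Type u} [Group G] [Finite G], Cfsg.IsMinSimpleOddOrder G →
  ∀ (M E : Subgroup G), IsCoatom M → Cfsg.IsComplIn E (Cfsg.sigmaCore M) M →
  ∀ (k : G) (p : ℕ), p ∈ Cfsg.tau1 M → k ∈ E → orderOf k = p →
    Cfsg.sigmaCore M ⊓ Subgroup.centralizer ({k} : Set G) ≠ ⊥ →
    ∀ q : ℕ, q ∈ Cfsg.tau1 M → q ∈ Cfsg.kappa M

/-- ECENT: in the nonabelian case with `|K| = p`, `M` centralizes `X`. -/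
def ECent : Prop :=
  ∀ {G : Type u} [Group G] [Finite G], Cfsg.IsMinSimpleOddOrder G →
  ∀ (M K U A X : Subgroup G) (k : G) (p r : ℕ), Cfg M K U A X k p r →
    (∀ S : Sylow r G, ¬ IsMulCommutative (S : Subgroup G)) → Nat.card K = p →
    M ≤ Subgroup.centralizer (X : Set G)

/-- HEX: a maximal subgroup `H ⊇ N_G(A)` with `r ∈ σ(H)` and `M ∩ H = K ⊔ U`. -/
def HEx : Prop :=
  ∀ {G : Type u} [Group G] [Finite G], Cfsg.IsMinSimpleOddOrder G →
  ∀ (M K U A X : Subgroup G) (k : G) (p r : ℕ), Cfg M K U A X k p r →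
    ∃ H : Subgroup G, IsCoatom H ∧ Subgroup.normalizer (A : Set G) ≤ H ∧ r ∈ Cfsg.sigma H ∧
      M ⊓ H = K ⊔ U

/-- PNOTSIGMA: for such an `H`, `p ∉ σ(H)` (else `k` lies in the normal `r`-complement of
`H_σ`, which exists by S1408 + S1414, and then `k` centralizes `A`). -/
def PNotSigma : Prop :=
  ∀ {G : Type u} [Group G] [Finite G], Cfsg.IsMinSimpleOddOrder G →
  ∀ (M K U A X : Subgroup G) (k : G) (p r : ℕ), Cfg M K U A X k p r →
  ∀ H : Subgroup G, IsCoatom H → Subgroup.normalizer (A : Set G) ≤ H → r ∈ Cfsg.sigma H →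
    p ∉ Cfsg.sigma H

/-- SEX: a `k`-invariant Sylow `r`-subgroup of `G` inside `H` containing `A` (coprime action of
`k` on `H_σ`; `H_σ` is a Hall subgroup of `G`). -/
def SEx : Prop :=
  ∀ {G : Type u} [Group G] [Finite G], Cfsg.IsMinSimpleOddOrder G →
  ∀ (H A : Subgroup G) (k : G) (p r : ℕ), IsCoatom H → p.Prime → r.Prime →
    r ∈ Cfsg.sigma H → p ∉ Cfsg.sigma H → k ∈ H → orderOf k = p → A ≤ H → IsPGroup r A →
    k ∈ Subgroup.normalizer (A : Set G) →
    ∃ S : Sylow r G, A ≤ (S : Subgroup G) ∧ (S : Subgroup G) ≤ H ∧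
      k ∈ Subgroup.normalizer ((S : Subgroup G) : Set G)

/-- QFIX: the elements of order dividing `r` of `C_S(k)` lie in `X`. -/
def QFix : Prop :=
  ∀ {G : Type u} [Group G] [Finite G], Cfsg.IsMinSimpleOddOrder G →
  ∀ (M K U A X : Subgroup G) (k : G) (p r : ℕ), Cfg M K U A X k p r →
    M ≤ Subgroup.centralizer (X : Set G) →
  ∀ H : Subgroup G, M ⊓ H = K ⊔ U →
  ∀ S : Sylow r G, A ≤ (S : Subgroup G) → (S : Subgroup G) ≤ H →
    ∀ y ∈ (S : Subgroup G), y * k = k * y → y ^ r = 1 → y ∈ X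

/-- VEX (pure, Schur–Zassenhaus + Sylow): a complement of `S` in `N_G(S)` containing a given
element of prime order `p ≠ r` of `N_G(S)`. -/
def VEx : Prop :=
  ∀ {G : Type u} [Group G] [Finite G] (p r : ℕ) (S : Sylow r G) (k : G), p.Prime → r.Prime →
    p ≠ r → orderOf k = p → k ∈ Subgroup.normalizer ((S : Subgroup G) : Set G) →
    ∃ V : Subgroup G,
      Cfsg.IsComplIn (S : Subgroup G) V (Subgroup.normalizer ((S : Subgroup G) : Set G)) ∧ k ∈ V

/-- VAB: an `r'`-subgroup `V` of `N_G(S)`, `S` a narrow Sylow `r`-subgroup, has `V' ≤ C_G(S)`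
(the proof of `Helper9.Narrow5.key` without the faithfulness hypothesis). -/
def VAb : Prop :=
  ∀ {G : Type u} [Group G] [Finite G] (r : ℕ) (S : Sylow r G) (V : Subgroup G), r.Prime →
    Odd (Nat.card G) → Cfsg.IsNarrow r ↥(S : Subgroup G) → Group.IsSolvable V →
    V ≤ Subgroup.normalizer ((S : Subgroup G) : Set G) → (Nat.card V).Coprime r →
    ∀ v ∈ V, ∀ w ∈ V, v * w * v⁻¹ * w⁻¹ ∈ Subgroup.centralizer ((S : Subgroup G) : Set G)

/-- NARROW: a Sylow `r`-subgroup of `G` containing `A` is narrow (S1408 +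
`Helper9.BG10d.isNarrow_of_maxElemAb`). -/
def NarrowS : Prop :=
  ∀ {G : Type u} [Group G] [Finite G], Cfsg.IsMinSimpleOddOrder G →
  ∀ (M A : Subgroup G) (r : ℕ), IsCoatom M → r ∈ Cfsg.tau2 M → A ≤ M →
    Cfsg.IsElementaryAbelian r A → Nat.card A = r ^ 2 →
    ∀ S : Sylow r G, A ≤ (S : Subgroup G) → Cfsg.IsNarrow r ↥(S : Subgroup G)

/-- NEXLO: rank `≤ 2`: a normal subgroup of index `r` of `S` meeting `X` trivially (S1412:
`C_S(y)` for some `y ∈ S` not commuting with `X`). -/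
def NExLo : Prop :=
  ∀ {G : Type u} [Group G] [Finite G], Cfsg.IsMinSimpleOddOrder G →
  ∀ (X : Subgroup G) (r : ℕ), r.Prime → Nat.card X = r →
  ∀ S : Sylow r G, X ≤ (S : Subgroup G) → Cfsg.PRankLE r 2 ↥(S : Subgroup G) →
    ¬ (S : Subgroup G) ≤ Subgroup.centralizer (X : Set G) →
    ∃ N : Subgroup G, N ≤ (S : Subgroup G) ∧ (S : Subgroup G) ≤ Subgroup.normalizer (N : Set G) ∧
      N.relIndex (S : Subgroup G) = r ∧ X ⊓ N = ⊥

/-- NEXHI: rank `≥ 3`: the same, with `N = C_S(Ω₁(Z₂(S)))` (S1453; `A` is a maximal elementary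
abelian subgroup of `G`). -/
def NExHi : Prop :=
  ∀ {G : Type u} [Group G] [Finite G], Odd (Nat.card G) →
  ∀ (A X : Subgroup G) (r : ℕ), r.Prime → Cfsg.IsElementaryAbelian r A → Nat.card A = r ^ 2 →
    (∀ B : Subgroup G, Cfsg.IsElementaryAbelian r B → A ≤ B → B = A) →
    X ≤ A → Nat.card X = r →
  ∀ S : Sylow r G, A ≤ (S : Subgroup G) → ¬ Cfsg.PRankLE r 2 ↥(S : Subgroup G) →
    ¬ (S : Subgroup G) ≤ Subgroup.centralizer (X : Set G) →
    ∃ N : Subgroup G, N ≤ (S : Subgroup G) ∧ (S : Subgroup G) ≤ Subgroup.normalizer (N : Set G) ∧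
      N.relIndex (S : Subgroup G) = r ∧ X ⊓ N = ⊥

/-- AVG (pure, averaging/transfer): if `V` is an `r'`-group normalizing `S`, `N ⊴ S` has index
`r`, and `V` centralizes some `x ∈ S ∖ N`, then `[S, V] ≠ S`. -/
def Avg : Prop :=
  ∀ {G : Type u} [Group G] [Finite G] (r : ℕ) (S V N : Subgroup G) (x : G), r.Prime →
    V ≤ Subgroup.normalizer (S : Set G) → (Nat.card V).Coprime r → N ≤ S →
    S ≤ Subgroup.normalizer (N : Set G) → N.relIndex S = r → x ∈ S → x ∉ N →
    (∀ v ∈ V, v * x = x * v) → ⁅S, V⁆ ≠ S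

end Cfsg.Agent.Lib.Helper55.S53Stmt
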