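import Mathlib
import Cfsg.Prelude.Def_OddOrderLocal
import Cfsg.Agent.Lib.Helper54.S68Stmt

set_option autoImplicit false

/-!
# S1434 (BG 14.7(b)-(e) under the S1367/S1368 hypotheses): statements of the pieces

Setting `Hyp M K U Ms Ks`: `M = K U M_σ` (σ-decomposition), `K ≠ 1`, `Ks = C_{M_σ}(K)` (`≠ 1`),
`Ms` maximal, `K = C_{Ms_σ}(Ks)`, `Ks` a Hall `κ(Ms)`-subgroup of `Ms`; moreover (S1367)
`C_G(X) ≤ M` for `X ≤ Ks` of prime order, `C_G(Y) ≤ Ms` for `Y ≤ K` of prime order, and (S1368)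
`M ∩ Ms = K Ks` is cyclic.  `Hyp.pair` gives helper54's `Pair M K Ms Ks`, so the S1368 pieces
`Cfsg.Agent.Lib.Helper54.S68Stmt.{Cent, Fus, TI, CardZ}` apply (`Zhat K Ks` is defined there).

Facts used everywhere: `|K|` and `|Ks|` are coprime (`K` is a `κ(M)`-group, `κ(M) ∩ σ(M) = ∅`
by the definition of `κ`; `Ks ≤ M_σ`, whose order is a `σ(M)`-number: `S1350`, or
`Cfsg.Agent.Lib.Helper9.BG11b.mem_sigma_of_dvd`); `K` centralizes `Ks` elementwise;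
every element of `K ⊔ Ks` is `a * b`, `a ∈ K`, `b ∈ Ks`
(`Cfsg.Agent.Lib.Helper47.Syl.exists_mul_of_mem_sup_left`); `K ⊔ Ks` is commutative (cyclic).
-/

namespace Cfsg.Agent.Lib.Helper55.S34Stmt

open Cfsg.Agent.Lib.Helper54.S68Stmt

universe u

/-- The standing hypotheses of S1434, with the conclusions of S1367 (existence parts) and of
S1368 as fields. -/
structure Hyp {G : Type u} [Group G] (M K U Ms Ks : Subgroup G) : Prop where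
  hM : IsCoatom M
  hKU : Cfsg.IsSigmaDecomposition M K U
  neK : K ≠ ⊥
  hMs : IsCoatom Ms
  eKs : Ks = Cfsg.sigmaCore M ⊓ Subgroup.centralizer (K : Set G)
  eK : K = Cfsg.sigmaCore Ms ⊓ Subgroup.centralizer (Ks : Set G)
  hKs : Cfsg.IsPiHallOf (Cfsg.kappa Ms) Ks Ms
  neKs : Ks ≠ ⊥
  cM : ∀ X : Subgroup G, X ≤ Ks → (Nat.card X).Prime → Subgroup.centralizer (X : Set G) ≤ M
  cMs : ∀ Y : Subgroup G, Y ≤ K → (Nat.card Y).Prime → Subgroup.centralizer (Y : Set G) ≤ Ms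
  int : M ⊓ Ms = K ⊔ Ks
  cyc : IsCyclic ↥(K ⊔ Ks)

theorem Hyp.pair {G : Type u} [Group G] {M K U Ms Ks : Subgroup G} (h : Hyp M K U Ms Ks) :
    Pair M K Ms Ks :=
  ⟨h.hM, h.hMs, h.hKU.hall, h.hKs, h.eKs, h.eK, h.neK, h.neKs⟩

/-- KAPPA: `κ(M) = τ₁(M)` for a σ-decomposition with `K ≠ 1`.
(`⊆`: `p ∈ κ(M)` divides `|M|` and not `K.relIndex M` (`hKU.hall.2.2`), so `p ∣ |K|`; then
`Cfsg.Agent.Lib.Helper63.S53TAU1.main`.  `⊇`: `Cfsg.Agent.Lib.Helper63.S53TAU1KAPPA.main` with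
`E := K ⊔ U` (`(Cfsg.Agent.Lib.Helper90.BG14U.uset_of_decomp hG hM hKU).compl`), `k ∈ K` of prime
order `p` (`p ∈ τ₁(M)` by `S53TAU1.main`), and `M_σ ∩ C(k) = M_σ ∩ C(K)`
(`Cfsg.Agent.Lib.Helper62.S53PRIMACT.main S53TAU1.main`) `≠ 1` (`Cfsg.Agent.S1354.result ... .1`).) -/
def Kappa : Prop :=
  ∀ {G : Type u} [Group G] [Finite G], Cfsg.IsMinSimpleOddOrder G →
  ∀ (M K U : Subgroup G), IsCoatom M → Cfsg.IsSigmaDecomposition M K U → K ≠ ⊥ →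
    Cfsg.kappa M = Cfsg.tau1 M

/-- SIGSUB (BG 14.2(h)): a `σ(M)`-subgroup `Y` of `G` meeting `Ks` nontrivially lies in `M_σ`.
(`Y ≠ 1`; `Cfsg.Agent.S1425.result` gives `g` with `g Y g⁻¹ ≤ M_σ`; for `1 ≠ x ∈ Y ∩ Ks`,
`g x g⁻¹ ∈ M`, so `g ∈ M` by `Fus` (for `h.pair`); `M` normalizes `M_σ`
(`Cfsg.Agent.Lib.Helper9.BG11b.sigmaCore_normal`), so `Y ≤ g⁻¹ M_σ g = M_σ`.) -/
def SigSub : Prop :=
  ∀ {G : Type u} [Group G] [Finite G], Cfsg.IsMinSimpleOddOrder G →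
  ∀ (M K U Ms Ks : Subgroup G), Hyp M K U Ms Ks →
  ∀ Y : Subgroup G, (∀ p : ℕ, p.Prime → p ∣ Nat.card Y → p ∈ Cfsg.sigma M) →
    Y ⊓ Ks ≠ ⊥ → Y ≤ Cfsg.sigmaCore M

/-- HALL: `Ks` is a Hall `σ(M)`-subgroup of `Ms`.
(`Ks ≤ Ms` (`h.hKs.1`); the primes of `|Ks|` are in `σ(M)` (`Ks ≤ M_σ`, `mem_sigma_of_dvd`).
`Ms` is solvable (`Cfsg.Agent.Lib.Helper9.BG10a.isSolvable_of_ne_top hG h.hMs.1`);
`Cfsg.Agent.Lib.Helper39.PGA.exists_isHallIn` in the group `↥Ms` (with `H := ⊤`,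
`π := (· ∈ σ(M))`) gives `L` with `.fac` (full `σ(M)`-part) and `.conj`: some conjugate `Y`
(inside `Ms`) of `L` contains `Ks`.  `Y` is a `σ(M)`-group with `Y ∩ Ks = Ks ≠ 1`: `SigSub`
gives `Y ≤ M_σ`; so `Y ≤ M ∩ Ms = K ⊔ Ks` (`h.int`); `y = a * b` (`a ∈ K`, `b ∈ Ks`) with
`a = y b⁻¹ ∈ M_σ ∩ K = 1` (coprime orders), so `Y ≤ Ks`, `Y = Ks`, `|Ks| = |L|`.  Hence for a
prime `p ∈ σ(M)` the `p`-parts of `|Ks|` and `|Ms|` agree and `p ∤ Ks.relIndex Ms`.) -/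
def Hall : Prop :=
  ∀ {G : Type u} [Group G] [Finite G], Cfsg.IsMinSimpleOddOrder G →
  ∀ (M K U Ms Ks : Subgroup G), Hyp M K U Ms Ks → Cfsg.IsPiHallOf (Cfsg.sigma M) Ks Ms

/-- CMS: `C_{Ms}(y) = K Ks` for `1 ≠ y ∈ Ks`.
(`Ks` is cyclic (a subgroup of the cyclic `K ⊔ Ks`); `Cfsg.Agent.S1354.result hG Ms h.hMs Ks _
h.hKs` `.2 h.neKs y hy hy1 : Ms ⊓ C{y} = Ks ⊔ (Ms_σ ⊓ C(Ks))`, and `Ms_σ ⊓ C(Ks) = K` by
`h.eK`; `sup_comm`.) -/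
def CMs : Prop :=
  ∀ {G : Type u} [Group G] [Finite G], Cfsg.IsMinSimpleOddOrder G →
  ∀ (M K U Ms Ks : Subgroup G), Hyp M K U Ms Ks → ∀ y ∈ Ks, y ≠ 1 →
    Ms ⊓ Subgroup.centralizer ({y} : Set G) = K ⊔ Ks

/-- CXY: `C_G(x y) = K Ks` for `1 ≠ x ∈ K`, `1 ≠ y ∈ Ks`.
(`⊇`: `K ⊔ Ks` is commutative and contains `x * y`.  `⊆`: `x`, `y` commute and have coprime
orders, so both are powers of `x * y`; if `g` commutes with `x * y` it commutes with `x` and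
`y`, hence with `X := zpowers x₀`, `x₀` a power of `x` of prime order (`X ≤ K`): `g ∈ Ms` by
`h.cMs`; likewise `g ∈ M` by `h.cM`; `h.int`.) -/
def CXY : Prop :=
  ∀ {G : Type u} [Group G] [Finite G], Cfsg.IsMinSimpleOddOrder G →
  ∀ (M K U Ms Ks : Subgroup G), Hyp M K U Ms Ks → ∀ x ∈ K, x ≠ 1 → ∀ y ∈ Ks, y ≠ 1 →
    Subgroup.centralizer ({x * y} : Set G) = K ⊔ Ks

/-- NOTIN: no element of `Zhat` lies in a conjugate `g M g⁻¹`, `g ∉ M`.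
(`z = a * b`, `a ∈ K`, `b ∈ Ks` commuting, `b ≠ 1` as `z ∉ K`; `s := z ^ |K| = b ^ |K| ∈ Ks`
is `≠ 1` (`orderOf b` is prime to `|K|`).  If `z = g m g⁻¹`, `m ∈ M`, then
`g⁻¹ s g = m ^ |K| ∈ M`, and `Fus` (for `h.pair`, with `g⁻¹`) gives `g⁻¹ ∈ M`.) -/
def NotIn : Prop :=
  ∀ {G : Type u} [Group G] [Finite G], Cfsg.IsMinSimpleOddOrder G →
  ∀ (M K U Ms Ks : Subgroup G), Hyp M K U Ms Ks → ∀ g : G, g ∉ M → ∀ z ∈ Zhat K Ks,
    z ∉ M.map (MulAut.conj g).toMonoidHom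

/-- CARDZLE (pure group theory, the reverse of helper54's `CardZ`): the conjugates of `Zhat`
are at most `(|K| - 1)(|Ks| - 1)|G : K Ks|` elements.  (`K ⊔ Ks` normalizes `K` and `Ks`, hence
`Zhat`; so the set is the image of `(G ⧸ (K ⊔ Ks)) × Zhat` under
`(q, z) ↦ q.out * z * q.out⁻¹`; `|Zhat| = (|K| - 1)(|Ks| - 1)` as in the landed
`Cfsg.Agent.Lib.Helper11.S68CARDZ` / `Cfsg.Agent.Lib.Helper77.S68CARDZ`.) -/
def CardZLe : Prop :=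
  ∀ {G : Type u} [Group G] [Finite G] (K Ks : Subgroup G), K ⊓ Ks = ⊥ →
    (∀ a ∈ K, ∀ b ∈ Ks, a * b = b * a) →
    Set.ncard {y : G | ∃ z ∈ Zhat K Ks, ∃ g : G, y = g * z * g⁻¹} ≤
      (Nat.card K - 1) * (Nat.card Ks - 1) * (K ⊔ Ks).index

/-- COUNT: `|K| |Ks| |C_G(Zhat)| = (|K| |Ks| - |K| - |Ks| + 1) |G|`.
(`CardZ` (with `TI` for `h.pair` and `h.int`) and `CardZLe` give
`ncard = (|K| - 1)(|Ks| - 1)(K ⊔ Ks).index`; `K ⊓ Ks = 1` (coprime orders), `K`, `Ks` commute,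
`|K ⊔ Ks| = |K| |Ks|`, `|K ⊔ Ks| (K ⊔ Ks).index = |G|`; `|K|, |Ks| ≥ 2`, so the truncated
subtraction is exact.  NOTE the order of the quantifiers in the set: `∃ g, ∃ z ∈ Zhat`.) -/
def Count : Prop :=
  ∀ {G : Type u} [Group G] [Finite G], Cfsg.IsMinSimpleOddOrder G →
  ∀ (M K U Ms Ks : Subgroup G), Hyp M K U Ms Ks →
    Nat.card K * Nat.card Ks *
        Set.ncard {a : G | ∃ g : G, ∃ z ∈ Zhat K Ks, a = g * z * g⁻¹} =
      (Nat.card K * Nat.card Ks - Nat.card K - Nat.card Ks + 1) * Nat.card G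

/-- HALF: the conjugates of `Zhat` are more than half of `G`.
(`a := |K|`, `b := |Ks|` are odd (`hG.1 : Odd (Nat.card G)`), coprime and `> 1`, so `a, b ≥ 3`
and not both `3`: `(a - 2)(b - 2) ≥ 3`, i.e. `2 (a b - a - b + 1) > a b`; multiply the
hypothesis by `2`.) -/
def Half : Prop :=
  ∀ {G : Type u} [Group G] [Finite G], Cfsg.IsMinSimpleOddOrder G →
  ∀ (M K U Ms Ks : Subgroup G), Hyp M K U Ms Ks →
    Nat.card K * Nat.card Ks *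
        Set.ncard {a : G | ∃ g : G, ∃ z ∈ Zhat K Ks, a = g * z * g⁻¹} =
      (Nat.card K * Nat.card Ks - Nat.card K - Nat.card Ks + 1) * Nat.card G →
    Nat.card G < 2 * Set.ncard {a : G | ∃ g : G, ∃ z ∈ Zhat K Ks, a = g * z * g⁻¹}

end Cfsg.Agent.Lib.Helper55.S34Stmt
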