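import Mathlib
import Cfsg.Agent.Lib.Helper43.H90Fin

set_option autoImplicit false
set_option linter.style.haveILetI false

/-! Field lemmas for S2717 (pieces UI, CH, EA, SF, NQ, NT of helper44's split). -/

namespace Cfsg.Agent.Lib.Helper55.GFField

open Cfsg.Agent.Lib.Helper43.H90Fin Polynomial

universe u

/-- the characteristic from the cardinality -/
theorem charP_of_card (F : Type u) [Field F] [Fintype F] (p f : ℕ) (hp : p.Prime)
    (hc : Fintype.card F = p ^ f) : CharP F p := by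
  obtain ⟨q, hq⟩ := CharP.exists F
  haveI := hq
  haveI : Fact q.Prime := ⟨CharP.char_is_prime F q⟩
  obtain ⟨n, hqp, hn⟩ := FiniteField.card F q
  have hf : f ≠ 0 := by
    rintro rfl
    rw [pow_zero] at hc
    exact absurd hc (ne_of_gt Fintype.one_lt_card)
  have h1 : p ∣ q ^ (n : ℕ) := by
    rw [← hn, hc]
    exact dvd_pow_self p hf
  have h2 : p = q := (Nat.prime_dvd_prime_iff_eq hp hqp).1 (hp.dvd_of_dvd_pow h1)
  rw [h2]
  exact hq

theorem char_two_iff (F : Type u) [Field F] [Fintype F] (p f : ℕ) (hp : p.Prime)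
    (hc : Fintype.card F = p ^ f) : ((2 : F) = 0 ↔ p = 2) := by
  haveI := charP_of_card F p f hp hc
  have h := CharP.cast_eq_zero_iff F p 2
  rw [Nat.cast_ofNat] at h
  rw [h, Nat.prime_dvd_prime_iff_eq hp Nat.prime_two]

theorem ringChar_ne_two {F : Type u} [Field F] (h2 : (2 : F) ≠ 0) : ringChar F ≠ 2 := by
  intro h
  apply h2
  have := CharP.cast_eq_zero F (ringChar F)
  rw [h, Nat.cast_ofNat] at this
  exact this

theorem card_fix_sq {F : Type u} [Field F] [Fintype F] (σ : RingAut F) (h2 : orderOf σ = 2) :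
    Nat.card (fixF σ) ^ 2 = Fintype.card F := by
  have h := card_fixF σ
  rw [h2] at h
  rw [← Nat.card_eq_fintype_card]
  exact h

theorem one_lt_card_fix {F : Type u} [Field F] [Fintype F] (σ : RingAut F) :
    1 < Nat.card (fixF σ) := by
  haveI := Fintype.ofFinite (fixF σ)
  rw [Nat.card_eq_fintype_card]
  exact Fintype.one_lt_card

theorem sigma_sigma {F : Type u} [Field F] (σ : RingAut F) (h2 : orderOf σ = 2) (x : F) :
    σ (σ x) = x := by
  have h := pow_orderOf_eq_one σ
  rw [h2, pow_two] at h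
  have h' := congrArg (fun τ : RingAut F => τ x) h
  exact h'

/-- fixed points are `q₀`-th power fixed -/
theorem pow_of_fix {F : Type u} [Field F] [Fintype F] (σ : RingAut F) (y : F) (hy : σ y = y) :
    y ^ Nat.card (fixF σ) = y := by
  haveI := Fintype.ofFinite (fixF σ)
  have hm : y ∈ fixF σ := (mem_fixF σ y).2 hy
  have h := FiniteField.pow_card (⟨y, hm⟩ : fixF σ)
  rw [Nat.card_eq_fintype_card]
  exact congrArg Subtype.val h

/-- the fixed field is exactly the set of roots of `X^q₀ - X` -/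
theorem fix_of_pow {F : Type u} [Field F] [Fintype F] (σ : RingAut F) (x : F)
    (hx : x ^ Nat.card (fixF σ) = x) : σ x = x := by
  classical
  haveI := Fintype.ofFinite (fixF σ)
  set q := Nat.card (fixF σ) with hq
  have hq1 : 1 < q := one_lt_card_fix σ
  set P : F[X] := X ^ q - X with hP
  have hP0 : P ≠ 0 := FiniteField.X_pow_card_sub_X_ne_zero F hq1
  have hdeg : P.natDegree = q := FiniteField.X_pow_card_sub_X_natDegree_eq F hq1
  set K' : Finset F := (Finset.univ : Finset (fixF σ)).map ⟨Subtype.val, Subtype.val_injective⟩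
    with hK'
  have hK'card : K'.card = q := by
    rw [hK', Finset.card_map, Finset.card_univ, hq, Nat.card_eq_fintype_card]
  have hsub : K' ⊆ P.roots.toFinset := by
    intro y hy
    rw [hK', Finset.mem_map] at hy
    obtain ⟨y', -, rfl⟩ := hy
    rw [Multiset.mem_toFinset, mem_roots hP0, hP]
    simp only [IsRoot.def, eval_sub, eval_pow, eval_X]
    have := pow_of_fix σ (y' : F) ((mem_fixF σ _).1 y'.2)
    rw [← hq] at this
    show (y' : F) ^ q - (y' : F) = 0
    rw [this, sub_self]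
  have hle : P.roots.toFinset.card ≤ K'.card := by
    rw [hK'card]
    calc P.roots.toFinset.card ≤ Multiset.card P.roots := Multiset.toFinset_card_le _
      _ ≤ P.natDegree := card_roots' P
      _ = q := hdeg
  have heq : K' = P.roots.toFinset := Finset.eq_of_subset_of_card_le hsub hle
  have hxr : x ∈ P.roots.toFinset := by
    rw [Multiset.mem_toFinset, mem_roots hP0, hP]
    simp only [IsRoot.def, eval_sub, eval_pow, eval_X]
    rw [hx, sub_self]
  rw [← heq, hK', Finset.mem_map] at hxr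
  obtain ⟨y', -, rfl⟩ := hxr
  exact (mem_fixF σ _).1 y'.2

/-- an involution of a finite field is the `q₀`-power map, `q₀` the order of its fixed field -/
theorem sigma_eq_pow {F : Type u} [Field F] [Fintype F] (σ : RingAut F) (h2 : orderOf σ = 2)
    (x : F) : σ x = x ^ Nat.card (fixF σ) := by
  set q := Nat.card (fixF σ) with hq
  have hq2 : q ^ 2 = Fintype.card F := card_fix_sq σ h2
  obtain ⟨p, hp⟩ := CharP.exists F
  haveI := hp
  haveI : Fact p.Prime := ⟨CharP.char_is_prime F p⟩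
  obtain ⟨n, hpp, hn⟩ := FiniteField.card F p
  have hdvd : q ∣ p ^ (n : ℕ) := by
    rw [← hn, ← hq2]
    exact dvd_pow_self q (by norm_num)
  obtain ⟨k, -, hk⟩ := (Nat.dvd_prime_pow hpp).1 hdvd
  -- the q-power map as a ring hom
  have hφ : ∀ a : F, iterateFrobenius F p k a = a ^ q := by
    intro a
    rw [iterateFrobenius_def, hk]
  set s := x + σ x with hs
  set nn := x * σ x with hnn
  have hσs : σ s = s := by
    rw [hs, map_add, sigma_sigma σ h2, add_comm]
  have hσn : σ nn = nn := by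
    rw [hnn, map_mul, sigma_sigma σ h2, mul_comm]
  have hsq : s ^ q = s := pow_of_fix σ s hσs
  have hnq : nn ^ q = nn := pow_of_fix σ nn hσn
  have h0 : x ^ 2 - s * x + nn = 0 := by
    rw [hs, hnn]; ring
  have h1 : (x ^ q) ^ 2 - s * x ^ q + nn = 0 := by
    have := congrArg (iterateFrobenius F p k) h0
    rw [map_zero, map_add, map_sub, map_mul, map_pow, hφ, hφ, hφ, hsq, hnq] at this
    exact this
  have h3 : (x ^ q - x) * (x ^ q - σ x) = 0 := by
    have : (x ^ q - x) * (x ^ q - σ x) = (x ^ q) ^ 2 - s * x ^ q + nn := by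
      rw [hs, hnn]; ring
    rw [this, h1]
  rcases mul_eq_zero.1 h3 with h | h
  · have hx : x ^ q = x := sub_eq_zero.1 h
    rw [hx]
    exact fix_of_pow σ x hx
  · exact (sub_eq_zero.1 h).symm

/-- [UI] -/
theorem unique_involution (F : Type u) [Field F] [Fintype F] (σ τ : RingAut F)
    (hσ : orderOf σ = 2) (hτ : orderOf τ = 2) : σ = τ := by
  have h1 := card_fix_sq σ hσ
  have h2 := card_fix_sq τ hτ
  have h3 : Nat.card (fixF σ) = Nat.card (fixF τ) :=
    Nat.pow_left_injective (by norm_num : (2 : ℕ) ≠ 0) (h1.trans h2.symm)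
  apply RingEquiv.ext
  intro x
  rw [sigma_eq_pow σ hσ, sigma_eq_pow τ hτ, h3]

/-- arithmetic: `q = 2m+1`, `q² = card` gives `card / 2 = 2m(m+1)` -/
theorem half_card (c q m : ℕ) (h : q ^ 2 = c) (hm : q = 2 * m + 1) :
    c / 2 = 2 * m * (m + 1) := by
  subst hm
  subst h
  have : (2 * m + 1) ^ 2 = 2 * (2 * m * (m + 1)) + 1 := by ring
  rw [this]
  omega

theorem odd_fix {F : Type u} [Field F] [Fintype F] (h2 : (2 : F) ≠ 0) (σ : RingAut F)
    (hσ : orderOf σ = 2) : ∃ m : ℕ, Nat.card (fixF σ) = 2 * m + 1 := by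
  have h1 := card_fix_sq σ hσ
  have h3 := FiniteField.odd_card_of_char_ne_two (ringChar_ne_two h2)
  rw [← h1] at h3
  have h4 : Nat.card (fixF σ) % 2 = 1 := by
    rcases Nat.mod_two_eq_zero_or_one (Nat.card (fixF σ)) with h | h
    · rw [Nat.pow_mod, h] at h3
      norm_num at h3
    · exact h
  exact ⟨Nat.card (fixF σ) / 2, by omega⟩

/-- [SF] -/
theorem sq_of_fix (F : Type u) [Field F] [Fintype F] (σ : RingAut F) (hσ : orderOf σ = 2)
    (y : F) (hy : σ y = y) : IsSquare y := by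
  by_cases h2 : (2 : F) = 0
  · apply FiniteField.isSquare_of_char_two
    by_contra hne
    have hodd := FiniteField.odd_card_of_char_ne_two hne
    obtain ⟨p, hp⟩ := CharP.exists F
    haveI := hp
    haveI : Fact p.Prime := ⟨CharP.char_is_prime F p⟩
    have hp2 : p = 2 := by
      have h := (CharP.cast_eq_zero_iff F p 2).1 (by rw [Nat.cast_ofNat]; exact h2)
      exact (Nat.prime_dvd_prime_iff_eq (CharP.char_is_prime F p) Nat.prime_two).1 h
    exact hne (by rw [← hp2]; exact (ringChar.eq F p))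
  · by_cases hy0 : y = 0
    · rw [hy0]; exact ⟨0, by simp⟩
    obtain ⟨m, hm⟩ := odd_fix h2 σ hσ
    have hN := half_card _ _ m (card_fix_sq σ hσ) hm
    rw [FiniteField.isSquare_iff (ringChar_ne_two h2) hy0, hN]
    have h3 := pow_of_fix σ y hy
    rw [hm, pow_succ] at h3
    have h4 : y ^ (2 * m) = 1 := by
      have : y ^ (2 * m) * y = 1 * y := by rw [h3, one_mul]
      exact mul_right_cancel₀ hy0 this
    rw [pow_mul, h4, one_pow]

/-- [NQ] -/
theorem nonsq_quot (F₀ : Type u) [Field F₀] [Fintype F₀] (h2 : (2 : F₀) ≠ 0) (x y : F₀)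
    (hx0 : x ≠ 0) (hx : ¬ IsSquare x) (hy : ¬ IsSquare y) : ∃ c : F₀, c ≠ 0 ∧ x = c ^ 2 * y := by
  have hF := ringChar_ne_two h2
  have hy0 : y ≠ 0 := by
    rintro rfl
    exact hy ⟨0, by simp⟩
  have hxd := FiniteField.pow_dichotomy hF hx0
  have hyd := FiniteField.pow_dichotomy hF hy0
  rw [FiniteField.isSquare_iff hF hx0] at hx
  rw [FiniteField.isSquare_iff hF hy0] at hy
  have hx1 : x ^ (Fintype.card F₀ / 2) = -1 := hxd.resolve_left hx
  have hy1 : y ^ (Fintype.card F₀ / 2) = -1 := hyd.resolve_left hy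
  have hxy0 : x / y ≠ 0 := div_ne_zero hx0 hy0
  have hsq : IsSquare (x / y) := by
    rw [FiniteField.isSquare_iff hF hxy0, div_pow, hx1, hy1]
    simp
  obtain ⟨c, hc⟩ := hsq
  refine ⟨c, ?_, ?_⟩
  · rintro rfl
    rw [mul_zero] at hc
    exact hxy0 hc
  · rw [pow_two, ← hc, div_mul_cancel₀ _ hy0]

/-- [EA] -/
theorem exists_aniso (F₀ : Type u) [Field F₀] [Fintype F₀] :
    ∃ a b : F₀, ∀ z₁ z₂ : F₀, z₁ ^ 2 + a * z₁ * z₂ + b * z₂ ^ 2 = 0 → z₁ = 0 ∧ z₂ = 0 := by
  by_cases hF : ringChar F₀ = 2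
  · -- characteristic two: `x ↦ x^2 + x` is not surjective
    have h2 : (2 : F₀) = 0 := by
      have := CharP.cast_eq_zero F₀ (ringChar F₀)
      rw [hF, Nat.cast_ofNat] at this
      exact this
    have hninj : ¬ Function.Injective (fun x : F₀ => x ^ 2 + x) := by
      intro hinj
      have h01 : (0 : F₀) = 1 := by
        apply hinj
        show (0 : F₀) ^ 2 + 0 = 1 ^ 2 + 1
        have : (1 : F₀) ^ 2 + 1 = 2 := by norm_num
        rw [this, h2]; simp
      exact zero_ne_one h01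
    have hnsurj : ¬ Function.Surjective (fun x : F₀ => x ^ 2 + x) := fun hs =>
      hninj (Finite.injective_iff_surjective.2 hs)
    have hex : ∃ b : F₀, ∀ a : F₀, a ^ 2 + a ≠ b := by
      by_contra hcon
      apply hnsurj
      intro b
      by_contra hb
      exact hcon ⟨b, fun a ha => hb ⟨a, ha⟩⟩
    obtain ⟨b, hb⟩ := hex
    refine ⟨1, b, ?_⟩
    intro z₁ z₂ h
    have hz2 : z₂ = 0 := by
      by_contra hz
      apply hb (z₁ / z₂)
      show (z₁ / z₂) ^ 2 + z₁ / z₂ = b
      have hneg : ∀ t : F₀, -t = t := by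
        intro t
        have : t + t = 0 := by rw [← two_mul, h2, zero_mul]
        exact neg_eq_of_add_eq_zero_left this
      have h' : z₁ ^ 2 + z₁ * z₂ = -(b * z₂ ^ 2) := by
        have : z₁ ^ 2 + z₁ * z₂ + b * z₂ ^ 2 = 0 := by rw [← h]; ring
        exact eq_neg_of_add_eq_zero_left this
      rw [hneg] at h'
      field_simp
      linear_combination h'
    subst hz2
    refine ⟨?_, rfl⟩
    have : z₁ ^ 2 = 0 := by rw [← h]; ring
    exact pow_eq_zero_iff (by norm_num) |>.1 this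
  · obtain ⟨ν, hν⟩ := FiniteField.exists_nonsquare hF
    refine ⟨0, -ν, ?_⟩
    intro z₁ z₂ h
    have h' : z₁ ^ 2 = ν * z₂ ^ 2 := by
      have : z₁ ^ 2 - ν * z₂ ^ 2 = 0 := by rw [← h]; ring
      exact sub_eq_zero.1 this
    have hz2 : z₂ = 0 := by
      by_contra hz
      apply hν
      refine ⟨z₁ / z₂, ?_⟩
      field_simp
      rw [h']
    subst hz2
    refine ⟨?_, rfl⟩
    have : z₁ ^ 2 = 0 := by rw [h']; ring
    exact pow_eq_zero_iff (by norm_num) |>.1 this

/-- [NT] -/
theorem square_crit (F : Type u) [Field F] [Fintype F] (h2 : (2 : F) ≠ 0) (σ : RingAut F)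
    (hσ : orderOf σ = 2) (c κ ν : F) (n : ℕ) (hν : σ ν = ν)
    (hns : ¬ ∃ y : F, σ y = y ∧ y ^ 2 = ν) (hc : c ^ 2 = ν) (hκ : κ * σ κ = ν) :
    (IsSquare (c ^ n * κ) ↔ (Odd n ∧ Nat.card ↥(fixF σ) % 4 = 1)) := by
  have hF := ringChar_ne_two h2
  have hν0 : ν ≠ 0 := by
    rintro rfl
    exact hns ⟨0, map_zero σ, by simp⟩
  have hc0 : c ≠ 0 := by
    rintro rfl
    apply hν0
    rw [← hc]; simp
  have hκ0 : κ ≠ 0 := by
    rintro rfl
    apply hν0
    rw [← hκ]; simp
  obtain ⟨m, hm⟩ := odd_fix h2 σ hσ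
  have hN := half_card _ _ m (card_fix_sq σ hσ) hm
  -- σ c = -c
  have hσc : σ c = -c := by
    have h1 : (σ c) ^ 2 = c ^ 2 := by rw [← map_pow, hc, hν]
    have h3 : (σ c - c) * (σ c + c) = 0 := by
      have : (σ c - c) * (σ c + c) = (σ c) ^ 2 - c ^ 2 := by ring
      rw [this, h1, sub_self]
    rcases mul_eq_zero.1 h3 with h | h
    · exact absurd ⟨c, sub_eq_zero.1 h, hc⟩ hns
    · exact eq_neg_of_add_eq_zero_left h
  have hc2m : c ^ (2 * m) = -1 := by
    have h1 := sigma_eq_pow σ hσ c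
    rw [hσc, hm, pow_succ] at h1
    have : c ^ (2 * m) * c = (-1) * c := by rw [← h1]; ring
    exact mul_right_cancel₀ hc0 this
  have hκq : κ ^ (2 * m + 2) = ν := by
    have h1 := sigma_eq_pow σ hσ κ
    rw [hm] at h1
    rw [← hκ, h1]; ring
  have hνm : ν ^ m = -1 := by
    rw [← hc, ← pow_mul, hc2m]
  have hcN : c ^ (2 * m * (m + 1)) = (-1) ^ (m + 1) := by
    rw [pow_mul, hc2m]
  have hκN : κ ^ (2 * m * (m + 1)) = -1 := by
    have : 2 * m * (m + 1) = (2 * m + 2) * m := by ring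
    rw [this, pow_mul, hκq, hνm]
  have hne : c ^ n * κ ≠ 0 := mul_ne_zero (pow_ne_zero n hc0) hκ0
  rw [FiniteField.isSquare_iff hF hne, hN, mul_pow, ← pow_mul, mul_comm n, pow_mul, hcN, hκN,
    ← pow_mul]
  have hm1 : (-1 : F) ≠ 1 := by
    intro h
    apply h2
    have : (2 : F) = 1 - (-1) := by norm_num
    rw [this, h, sub_self]
  have key : ((-1 : F) ^ ((m + 1) * n) * -1 = 1) ↔ Odd ((m + 1) * n) := by
    rcases Nat.even_or_odd ((m + 1) * n) with he | ho
    · rw [he.neg_one_pow, one_mul]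
      constructor
      · intro h; exact absurd h hm1
      · intro h; exact absurd he (Nat.not_even_iff_odd.2 h)
    · rw [ho.neg_one_pow]
      constructor
      · intro _; exact ho
      · intro _; norm_num
  rw [key, Nat.odd_mul, hm]
  constructor
  · rintro ⟨h1, h3⟩
    refine ⟨h3, ?_⟩
    obtain ⟨t, ht⟩ := h1
    omega
  · rintro ⟨h1, h3⟩
    refine ⟨?_, h1⟩
    rw [Nat.odd_iff]
    omega

end Cfsg.Agent.Lib.Helper55.GFField
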