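import Mathlib

/-!
Abstract lemmas on groups with fixed-point-free automorphisms, used for S4006
(groups whose element orders are exactly 1, 2, 3, 4).

* `neumann`: a splitting fixed-point-free automorphism of order 3 forces class ≤ 2.
* `elemAb`: with an additional inverting involution whose "norm" elements are involutions,
  the group is elementary abelian.
* `inv_of_fpf_invol`: a fixed-point-free involutory automorphism of a finite group inverts it.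
-/

set_option autoImplicit false

namespace Cfsg.Agent.Lib.Helper55.OC4

open scoped commutatorElement

variable {N : Type*} [Group N]

theorem comm_expand (c b v : N) : ⁅c * b, v⁆ = ⁅c, ⁅b, v⁆⁆ * ⁅b, v⁆ * ⁅c, v⁆ := by
  simp only [commutatorElement_def]; group

section Neumann

variable (σ : N ≃* N) (hA1 : ∀ n, n * σ n * σ (σ n) = 1)
include hA1

theorem sigma3 (n : N) : σ (σ (σ n)) = n := by
  have h1 := hA1 n
  have h2 := hA1 (σ n)
  have e1 : n = (σ n * σ (σ n))⁻¹ := by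
    rw [mul_assoc] at h1; exact eq_inv_of_mul_eq_one_left h1
  have e2 : σ (σ (σ n)) = (σ n * σ (σ n))⁻¹ := eq_inv_of_mul_eq_one_right h2
  rw [e2, ← e1]

theorem A1r (n : N) : σ (σ n) * σ n * n = 1 := by
  have h := hA1 n⁻¹
  simp only [map_inv] at h
  have h2 := congrArg Inv.inv h
  simpa [mul_inv_rev, mul_assoc] using h2

theorem comm_sigma (n : N) : n * σ n = σ n * n := by
  have h1 : n * σ n = (σ (σ n))⁻¹ := eq_inv_of_mul_eq_one_left (hA1 n)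
  have h2 : σ n * n = (σ (σ n))⁻¹ := by
    have := A1r σ hA1 n
    rw [mul_assoc] at this
    exact eq_inv_of_mul_eq_one_right this
  rw [h1, h2]

theorem comm_twist (p w : N) : ⁅σ p, w⁆ = ⁅p, σ w⁆ := by
  have hc := comm_sigma σ hA1 (p⁻¹ * w)
  have hp := comm_sigma σ hA1 p
  have hw := comm_sigma σ hA1 w
  simp only [map_mul, map_inv] at hc
  have hw' : w * (σ w)⁻¹ * w⁻¹ = (σ w)⁻¹ := by
    have : w * (σ w)⁻¹ = (σ w)⁻¹ * w := by
      have h : (σ w)⁻¹ * (w * σ w) * (σ w)⁻¹ = (σ w)⁻¹ * (σ w * w) * (σ w)⁻¹ := by rw [hw]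
      have e1 : (σ w)⁻¹ * (w * σ w) * (σ w)⁻¹ = (σ w)⁻¹ * w := by group
      have e2 : (σ w)⁻¹ * (σ w * w) * (σ w)⁻¹ = w * (σ w)⁻¹ := by group
      rw [e1, e2] at h
      exact h.symm
    rw [this]; group
  rw [commutatorElement_def, commutatorElement_def]
  calc σ p * w * (σ p)⁻¹ * w⁻¹
      = σ p * p * (p⁻¹ * w * ((σ p)⁻¹ * σ w)) * (σ w)⁻¹ * w⁻¹ := by group
    _ = σ p * p * ((σ p)⁻¹ * σ w * (p⁻¹ * w)) * (σ w)⁻¹ * w⁻¹ := by rw [hc]
    _ = (σ p * p) * (σ p)⁻¹ * σ w * p⁻¹ * (w * (σ w)⁻¹ * w⁻¹) := by group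
    _ = (p * σ p) * (σ p)⁻¹ * σ w * p⁻¹ * (σ w)⁻¹ := by rw [hp, hw']
    _ = p * σ w * p⁻¹ * (σ w)⁻¹ := by group

theorem comm_s2 (p w : N) : ⁅p, σ (σ w)⁆ = σ ⁅p, w⁆ := by
  rw [← comm_twist σ hA1 p (σ w), map_commutatorElement]

theorem comm_s1 (p w : N) : ⁅p, σ w⁆ = σ (σ ⁅p, w⁆) := by
  have h := comm_s2 σ hA1 p (σ (σ w))
  rw [sigma3 σ hA1 (σ w)] at h
  rw [h, comm_s2 σ hA1]

variable (hfp : ∀ n, σ n = n → n = 1)
include hfp

/-- Neumann: class at most 2. -/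
theorem neumann (c b w : N) : ⁅c, ⁅b, w⁆⁆ = 1 := by
  have h1 := comm_s1 σ hA1 (c * b) w
  rw [comm_expand c b (σ w), comm_expand c b w, comm_s1 σ hA1 b w, comm_s1 σ hA1 c w] at h1
  simp only [map_mul] at h1
  have h2 : ⁅c, σ (σ ⁅b, w⁆)⁆ = σ (σ ⁅c, ⁅b, w⁆⁆) := by
    have := mul_right_cancel h1
    exact mul_right_cancel this
  rw [comm_s2 σ hA1] at h2
  have h3 : σ ⁅c, ⁅b, w⁆⁆ = 1 := hfp _ h2.symm
  exact (MulEquiv.map_eq_one_iff σ).1 h3

theorem comm_mem_center (a b : N) : ⁅a, b⁆ ∈ Subgroup.center N := by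
  rw [Subgroup.mem_center_iff]
  intro g
  exact (commutatorElement_eq_one_iff_mul_comm.1 (neumann σ hA1 hfp g a b))

end Neumann

section ElemAb

variable (σ τ : N ≃* N) (hA1 : ∀ n, n * σ n * σ (σ n) = 1) (hfp : ∀ n, σ n = n → n = 1)
  (hτ2 : ∀ n, τ (τ n) = n) (hτσ : ∀ n, τ (σ (τ n)) = σ (σ n))
  (hd : ∀ h, (τ h * h) ^ 2 = 1) (he : ∀ h : N, h ^ 4 = 1)

include hA1 hfp in
theorem sqZ (f : N →* N) (hf : ∀ h, (f h * h) ^ 2 = 1) (h : N) :
    f (h ^ 2) * h ^ 2 ∈ Subgroup.center N := by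
  have hc : ⁅h, f h⁆ ∈ Subgroup.center N := comm_mem_center σ hA1 hfp _ _
  have key : f (h ^ 2) * h ^ 2 = ⁅h, f h⁆⁻¹ := by
    have h1 : f h * h * (f h * h) = 1 := by rw [← sq]; exact hf h
    have h2 : f h * h * (f h * h) = f h * ⁅h, f h⁆ * (f h * (h * h)) := by
      rw [commutatorElement_def]; group
    have h3 : f h * ⁅h, f h⁆ = ⁅h, f h⁆ * f h := Subgroup.mem_center_iff.1 hc (f h)
    rw [h2, h3] at h1
    rw [map_pow, sq, sq]
    refine eq_inv_of_mul_eq_one_right ?_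
    rw [← h1]; group
  rw [key]; exact inv_mem hc

include hτ2 hτσ in
theorem tau_sigma (n : N) : τ (σ n) = σ (σ (τ n)) := by
  have := hτσ (τ n)
  rwa [hτ2] at this

include hA1 hτ2 hτσ in
theorem tau_s2_tau (y : N) : τ (σ (σ (τ y))) = σ y := by
  rw [tau_sigma σ τ hτ2 hτσ, hτσ, sigma3 σ hA1 (σ y)]

include hA1 hτσ in
theorem tau_tau' (y : N) : τ (σ (τ (σ (σ y)))) = σ y := by
  rw [hτσ, sigma3 σ hA1 (σ y)]

include hA1 hd in
theorem hd' (h : N) : (σ (τ (σ (σ h))) * h) ^ 2 = 1 := by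
  have := hd (σ (σ h))
  have h2 := congrArg σ this
  rw [map_pow, map_mul, sigma3 σ hA1 h, map_one] at h2
  exact h2

include hA1 hfp hτ2 hτσ hd he in
theorem sq_mem_center (h : N) : h ^ 2 ∈ Subgroup.center N := by
  set Z := Subgroup.center N with hZ
  set y := h ^ 2 with hy
  let τ' : N →* N := σ.toMonoidHom.comp (τ.toMonoidHom.comp (σ.toMonoidHom.comp σ.toMonoidHom))
  have hτ' : ∀ n, τ' n = σ (τ (σ (σ n))) := fun n => rfl
  have hf' : ∀ n, (τ' n * n) ^ 2 = 1 := fun n => by rw [hτ']; exact hd' σ τ hA1 hd n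
  have E1 := sqZ σ hA1 hfp τ.toMonoidHom hd h
  have E2 := sqZ σ hA1 hfp τ' hf' (τ h)
  have E3 := sqZ σ hA1 hfp τ' hf' h
  have E4 := sqZ σ hA1 hfp τ.toMonoidHom hd (τ' h)
  simp only [MulEquiv.coe_toMonoidHom] at E1 E4
  rw [← map_pow, hτ', tau_s2_tau σ τ hA1 hτ2 hτσ] at E2
  rw [hτ'] at E3
  rw [← map_pow, hτ', tau_tau' σ τ hA1 hτσ] at E4
  rw [← hy] at E1 E2 E3 E4
  -- pass to the quotient
  have q1 : ((τ y : N) : N ⧸ Z) * (y : N ⧸ Z) = 1 := by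
    rw [← QuotientGroup.mk_mul]; exact (QuotientGroup.eq_one_iff _).2 E1
  have q2 : ((σ (σ y) : N) : N ⧸ Z) * ((τ y : N) : N ⧸ Z) = 1 := by
    rw [← QuotientGroup.mk_mul]; exact (QuotientGroup.eq_one_iff _).2 E2
  have q3 : ((σ (τ (σ (σ y))) : N) : N ⧸ Z) * (y : N ⧸ Z) = 1 := by
    rw [← QuotientGroup.mk_mul]; exact (QuotientGroup.eq_one_iff _).2 E3
  have q4 : ((σ y : N) : N ⧸ Z) * ((σ (τ (σ (σ y))) : N) : N ⧸ Z) = 1 := by
    rw [← QuotientGroup.mk_mul]; exact (QuotientGroup.eq_one_iff _).2 E4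
  have r2 : ((σ (σ y) : N) : N ⧸ Z) = (y : N ⧸ Z) := by
    rw [eq_inv_of_mul_eq_one_left q2, eq_inv_of_mul_eq_one_left q1, inv_inv]
  have r1 : ((σ y : N) : N ⧸ Z) = (y : N ⧸ Z) := by
    rw [eq_inv_of_mul_eq_one_left q4, eq_inv_of_mul_eq_one_left q3, inv_inv]
  have q5 : (y : N ⧸ Z) * (y : N ⧸ Z) * (y : N ⧸ Z) = 1 := by
    have := congrArg (fun t : N => (t : N ⧸ Z)) (hA1 y)
    simp only [QuotientGroup.mk_mul, QuotientGroup.mk_one] at this
    rw [r1, r2] at this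
    exact this
  have q6 : (y : N ⧸ Z) ^ 4 = 1 := by
    rw [← QuotientGroup.mk_pow, hy, ← pow_mul]
    have : h ^ (2 * 4) = 1 := by rw [show 2 * 4 = 4 * 2 from rfl, pow_mul, he, one_pow]
    rw [this]; rfl
  have q7 : (y : N ⧸ Z) = 1 := by
    have e : (y : N ⧸ Z) ^ 4 = (y : N ⧸ Z) * (y : N ⧸ Z) * (y : N ⧸ Z) * (y : N ⧸ Z) := by
      rw [pow_succ, pow_succ, pow_succ, pow_one]
    rw [e, q5, one_mul] at q6
    exact q6
  exact (QuotientGroup.eq_one_iff _).1 q7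

include hA1 hfp hτ2 hτσ hd he in
theorem comm_sq (a b : N) : ⁅a, b⁆ ^ 2 = 1 := by
  have ha := sq_mem_center σ τ hA1 hfp hτ2 hτσ hd he a
  have hc : ⁅a, b⁆ ∈ Subgroup.center N := comm_mem_center σ hA1 hfp _ _
  have h1 : ⁅a, b⁆ * ⁅a, b⁆ = (⁅a, b⁆ * a) * (b * a⁻¹ * b⁻¹) := by
    simp only [commutatorElement_def]; group
  have h2 : a * ⁅a, b⁆ * (b * a⁻¹ * b⁻¹) = (a * a * b) * (a * a)⁻¹ * b⁻¹ := by
    simp only [commutatorElement_def]; group
  rw [sq] at ha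
  rw [sq, h1, ← Subgroup.mem_center_iff.1 hc a, h2, ← Subgroup.mem_center_iff.1 ha b]
  group

include hA1 hfp hτ2 hτσ hd he in
theorem c_comm (h₁ h₂ : N) : Commute (τ h₁ * h₁) (τ h₂ * h₂) := by
  have hc : ⁅τ h₂, h₁⁆ ∈ Subgroup.center N := comm_mem_center σ hA1 hfp _ _
  have e1 : τ (h₁ * h₂) * (h₁ * h₂) = τ h₁ * ⁅τ h₂, h₁⁆ * (h₁ * (τ h₂ * h₂)) := by
    rw [map_mul, commutatorElement_def]; group
  rw [Subgroup.mem_center_iff.1 hc (τ h₁)] at e1
  have e2 : (τ h₁ * h₁) * (τ h₂ * h₂) = ⁅τ h₂, h₁⁆⁻¹ * (τ (h₁ * h₂) * (h₁ * h₂)) := by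
    rw [e1]; group
  have hcm : Commute ⁅τ h₂, h₁⁆⁻¹ (τ (h₁ * h₂) * (h₁ * h₂)) := by
    have := Subgroup.mem_center_iff.1 (inv_mem hc) (τ (h₁ * h₂) * (h₁ * h₂))
    exact this.symm
  have e3 : ((τ h₁ * h₁) * (τ h₂ * h₂)) ^ 2 = 1 := by
    rw [e2, hcm.mul_pow, hd, inv_pow, comm_sq σ τ hA1 hfp hτ2 hτσ hd he]; simp
  have c1 := hd h₁
  have c2 := hd h₂
  set u := τ h₁ * h₁
  set v := τ h₂ * h₂
  rw [sq] at e3 c1 c2
  have i1 : u⁻¹ = u := (eq_inv_of_mul_eq_one_left c1).symm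
  have i2 : v⁻¹ = v := (eq_inv_of_mul_eq_one_left c2).symm
  have : u * v = (u * v)⁻¹ := eq_inv_of_mul_eq_one_left e3
  rw [mul_inv_rev, i1, i2] at this
  exact this

include hA1 hfp hτ2 hτσ hd he in
theorem exists_decomp (h : N) : ∃ z ∈ Subgroup.center N,
    h = (τ (σ (σ h)) * σ (σ h)) * σ (τ h * h) * z := by
  set Z := Subgroup.center N with hZ
  refine ⟨((τ (σ (σ h)) * σ (σ h)) * σ (τ h * h))⁻¹ * h, ?_, by group⟩
  rw [← QuotientGroup.eq_one_iff, QuotientGroup.mk_mul, QuotientGroup.mk_inv,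
    inv_mul_eq_one]
  have hQcomm : ∀ a b : N, (a : N ⧸ Z) * (b : N ⧸ Z) = (b : N ⧸ Z) * (a : N ⧸ Z) := by
    intro a b
    have hc : ⁅a, b⁆ ∈ Z := comm_mem_center σ hA1 hfp _ _
    have := (QuotientGroup.eq_one_iff _).2 hc
    rw [commutatorElement_def] at this
    simp only [QuotientGroup.mk_mul, QuotientGroup.mk_inv] at this
    have e : (a : N ⧸ Z) * (b : N ⧸ Z)
        = ((a : N ⧸ Z) * (b : N ⧸ Z) * (a : N ⧸ Z)⁻¹ * (b : N ⧸ Z)⁻¹) * ((b : N ⧸ Z) * (a : N ⧸ Z)) := by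
      group
    rw [e, this, one_mul]
  have hu : τ (σ (σ h)) = σ (τ h) := by
    rw [tau_sigma σ τ hτ2 hτσ, tau_sigma σ τ hτ2 hτσ, sigma3 σ hA1 (σ (τ h))]
  rw [hu, map_mul]
  set u := σ (τ h) with hu'
  simp only [QuotientGroup.mk_mul]
  have hu2 : (u : N ⧸ Z) * (u : N ⧸ Z) = 1 := by
    rw [← QuotientGroup.mk_mul, ← sq]
    exact (QuotientGroup.eq_one_iff _).2 (sq_mem_center σ τ hA1 hfp hτ2 hτσ hd he u)
  have hh : ((σ (σ h) : N) : N ⧸ Z) * ((σ h : N) : N ⧸ Z) = (h : N ⧸ Z)⁻¹ := by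
    rw [← QuotientGroup.mk_mul, ← QuotientGroup.mk_inv]
    congr 1
    exact eq_inv_of_mul_eq_one_left (A1r σ hA1 h)
  have hh2 : (h : N ⧸ Z)⁻¹ = (h : N ⧸ Z) := by
    have : (h : N ⧸ Z) * (h : N ⧸ Z) = 1 := by
      rw [← QuotientGroup.mk_mul, ← sq]
      exact (QuotientGroup.eq_one_iff _).2 (sq_mem_center σ τ hA1 hfp hτ2 hτσ hd he h)
    exact (eq_inv_of_mul_eq_one_left this).symm
  calc (u : N ⧸ Z) * ((σ (σ h) : N) : N ⧸ Z) * ((u : N ⧸ Z) * ((σ h : N) : N ⧸ Z))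
      = (u : N ⧸ Z) * (((σ (σ h) : N) : N ⧸ Z) * (u : N ⧸ Z)) * ((σ h : N) : N ⧸ Z) := by group
    _ = (u : N ⧸ Z) * ((u : N ⧸ Z) * ((σ (σ h) : N) : N ⧸ Z)) * ((σ h : N) : N ⧸ Z) := by
        rw [hQcomm (σ (σ h)) u]
    _ = ((u : N ⧸ Z) * (u : N ⧸ Z)) * (((σ (σ h) : N) : N ⧸ Z) * ((σ h : N) : N ⧸ Z)) := by group
    _ = (h : N ⧸ Z) := by rw [hu2, hh, hh2, one_mul]

include hA1 hfp hτ2 hτσ hd he in
/-- The group is elementary abelian. -/
theorem elemAb : (∀ a b : N, a * b = b * a) ∧ ∀ h : N, h ^ 2 = 1 := by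
  have hcomm : ∀ a b : N, a * b = b * a := by
    intro a b
    obtain ⟨za, hza, ea⟩ := exists_decomp σ τ hA1 hfp hτ2 hτσ hd he a
    obtain ⟨zb, hzb, eb⟩ := exists_decomp σ τ hA1 hfp hτ2 hτσ hd he b
    have cc : ∀ p q : N, Commute (τ p * p) (τ q * q) := c_comm σ τ hA1 hfp hτ2 hτσ hd he
    have cs : ∀ p q : N, Commute (τ p * p) (σ (τ q * q)) := by
      intro p q
      have := comm_s1 σ hA1 (τ p * p) (τ q * q)
      rw [commutatorElement_eq_one_iff_commute.2 (cc p q)] at this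
      simp only [map_one] at this
      exact commutatorElement_eq_one_iff_commute.1 this
    have ss : ∀ p q : N, Commute (σ (τ p * p)) (σ (τ q * q)) := fun p q => (cc p q).map σ
    have cz : ∀ (z : N), z ∈ Subgroup.center N → ∀ g : N, Commute g z :=
      fun z hz g => Subgroup.mem_center_iff.1 hz g
    have key : Commute a b := by
      rw [ea, eb]
      refine Commute.mul_left (Commute.mul_left ?_ ?_) ?_
      · exact Commute.mul_right (Commute.mul_right (cc _ _) (cs _ _)) (cz _ hzb _)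
      · exact Commute.mul_right (Commute.mul_right (cs _ _).symm (ss _ _)) (cz _ hzb _)
      · exact (cz _ hza _).symm
    exact key
  refine ⟨hcomm, ?_⟩
  intro h
  have h1 : τ (h ^ 2) = (h ^ 2)⁻¹ := by
    have := hd h
    rw [(show Commute (τ h) h from hcomm _ _).mul_pow] at this
    rw [map_pow]; exact eq_inv_of_mul_eq_one_left this
  have h2 : σ (τ (σ (σ (h ^ 2)))) = (h ^ 2)⁻¹ := by
    have := hd' σ τ hA1 hd h
    rw [(show Commute (σ (τ (σ (σ h)))) h from hcomm _ _).mul_pow] at this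
    simp only [map_pow]; exact eq_inv_of_mul_eq_one_left this
  have h3 : σ (h ^ 2) = h ^ 2 := by
    rw [← tau_tau' σ τ hA1 hτσ (h ^ 2), h2, map_inv, h1, inv_inv]
  exact hfp _ h3

end ElemAb

section Invol

/-- A fixed-point-free involutory automorphism of a finite group inverts every element, and the
group is abelian. -/
theorem inv_of_fpf_invol [Finite N] (τ : N ≃* N) (hτ2 : ∀ n, τ (τ n) = n)
    (hfp : ∀ n, τ n = n → n = 1) : (∀ n, τ n = n⁻¹) ∧ ∀ a b : N, a * b = b * a := by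
  have hinj : Function.Injective (fun n : N => n⁻¹ * τ n) := by
    intro n m hnm
    simp only at hnm
    have h1 : τ (m * n⁻¹) = m * n⁻¹ := by
      rw [map_mul, map_inv]
      have : τ m = m * (n⁻¹ * τ n) := by rw [hnm]; group
      rw [this]; group
    have := hfp _ h1
    rw [mul_inv_eq_one] at this
    exact this.symm
  have hsurj : Function.Surjective (fun n : N => n⁻¹ * τ n) := Finite.surjective_of_injective hinj
  have hinv : ∀ n, τ n = n⁻¹ := by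
    intro m
    obtain ⟨n, rfl⟩ := hsurj m
    simp only [map_mul, map_inv, hτ2, mul_inv_rev, inv_inv]
  refine ⟨hinv, ?_⟩
  intro a b
  have h := hinv (a * b)
  rw [map_mul, hinv, hinv, mul_inv_rev] at h
  have := congrArg Inv.inv h
  simpa [mul_inv_rev] using this.symm

end Invol

end Cfsg.Agent.Lib.Helper55.OC4
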