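import Mathlib
import Cfsg.Prelude
import Cfsg.Agent.Lib.Helper55.OC4A
import Cfsg.Agent.S0144
import Cfsg.Agent.S0016

/-!
Groups all of whose elements have order 1, 2, 3 or 4 (hypothesis `OC`): basic facts, and the case
where the 3-core is nontrivial.
-/

set_option autoImplicit false

namespace Cfsg.Agent.Lib.Helper55.OC4

universe u

open scoped commutatorElement

variable {G : Type u} [Group G]

/-- Every element has order 1, 2, 4 or 3. -/
def OC (G : Type u) [Group G] : Prop := ∀ g : G, g ^ 4 = 1 ∨ g ^ 3 = 1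

theorem eq_one_of_pow4_pow3 {g : G} (h4 : g ^ 4 = 1) (h3 : g ^ 3 = 1) : g = 1 := by
  have : g ^ 4 = g ^ 3 * g := pow_succ g 3
  rw [h4, h3, one_mul] at this
  exact this.symm

theorem eq_one_of_pow2_pow3 {g : G} (h2 : g ^ 2 = 1) (h3 : g ^ 3 = 1) : g = 1 := by
  have : g ^ 3 = g ^ 2 * g := pow_succ g 2
  rw [h2, h3, one_mul] at this
  exact this.symm

theorem pow4_of_pow2 {g : G} (h2 : g ^ 2 = 1) : g ^ 4 = 1 := by
  rw [show 4 = 2 * 2 from rfl, pow_mul, h2, one_pow]

theorem OC.comm (hO : OC G) {a b : G} (hab : Commute a b) (ha : a ^ 4 = 1) (hb : b ^ 3 = 1) :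
    a = 1 ∨ b = 1 := by
  rcases hO (a * b) with h | h
  · rw [hab.mul_pow, ha, one_mul] at h
    exact Or.inr (eq_one_of_pow4_pow3 h hb)
  · rw [hab.mul_pow, hb, mul_one] at h
    exact Or.inl (eq_one_of_pow4_pow3 ha h)

theorem OC.pow4_of_two (hO : OC G) {g : G} {k : ℕ} (h : g ^ 2 ^ k = 1) : g ^ 4 = 1 := by
  rcases hO g with h4 | h3
  · exact h4
  · have h1 : orderOf g ∣ 2 ^ k := orderOf_dvd_of_pow_eq_one h
    have h2 : orderOf g ∣ 3 := orderOf_dvd_of_pow_eq_one h3
    have hc : Nat.Coprime (2 ^ k) 3 := Nat.Coprime.pow_left k (by norm_num)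
    have : orderOf g = 1 := Nat.Coprime.eq_one_of_dvd (hc.coprime_dvd_left h1) h2
    rw [orderOf_eq_one_iff] at this
    rw [this, one_pow]

theorem OC.pow3_of_three (hO : OC G) {g : G} {k : ℕ} (h : g ^ 3 ^ k = 1) : g ^ 3 = 1 := by
  rcases hO g with h4 | h3
  · have h1 : orderOf g ∣ 3 ^ k := orderOf_dvd_of_pow_eq_one h
    have h2 : orderOf g ∣ 4 := orderOf_dvd_of_pow_eq_one h4
    have hc : Nat.Coprime (3 ^ k) 4 := Nat.Coprime.pow_left k (by norm_num)
    have : orderOf g = 1 := Nat.Coprime.eq_one_of_dvd (hc.coprime_dvd_left h1) h2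
    rw [orderOf_eq_one_iff] at this
    rw [this, one_pow]
  · exact h3

theorem OC.quot (hO : OC G) (N : Subgroup G) [N.Normal] : OC (G ⧸ N) := by
  intro q
  obtain ⟨g, rfl⟩ := QuotientGroup.mk_surjective q
  rcases hO g with h | h
  · left; rw [← QuotientGroup.mk_pow, h]; rfl
  · right; rw [← QuotientGroup.mk_pow, h]; rfl

theorem OC.solvable [Finite G] (hO : OC G) : Group.IsSolvable G := by
  refine Cfsg.Agent.S0144.main 2 3 Nat.prime_two Nat.prime_three (Nat.card G) G rfl ?_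
  intro r hr hrd
  have : Fact r.Prime := ⟨hr⟩
  obtain ⟨g, hg⟩ := exists_prime_orderOf_dvd_card' r hrd
  rcases hO g with h | h
  · left
    have h4 : r ∣ 4 := hg ▸ orderOf_dvd_of_pow_eq_one h
    have h2 : r ∣ 2 := hr.dvd_of_dvd_pow (show r ∣ 2 ^ 2 from h4)
    exact (Nat.prime_dvd_prime_iff_eq hr Nat.prime_two).1 h2
  · right
    have h3 : r ∣ 3 := hg ▸ orderOf_dvd_of_pow_eq_one h
    exact (Nat.prime_dvd_prime_iff_eq hr Nat.prime_three).1 h3

/-- Elements of an abelian subgroup killed by `k`. -/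
def torSub (A : Subgroup G) (hA : ∀ a ∈ A, ∀ b ∈ A, a * b = b * a) (k : ℕ) : Subgroup G where
  carrier := {a | a ∈ A ∧ a ^ k = 1}
  one_mem' := ⟨A.one_mem, one_pow k⟩
  mul_mem' := fun {a b} ha hb => ⟨A.mul_mem ha.1 hb.1, by
    rw [(show Commute a b from hA _ ha.1 _ hb.1).mul_pow, ha.2, hb.2, one_mul]⟩
  inv_mem' := fun {a} ha => ⟨A.inv_mem ha.1, by rw [inv_pow, ha.2, inv_one]⟩

theorem mem_torSub {A : Subgroup G} {hA : ∀ a ∈ A, ∀ b ∈ A, a * b = b * a} {k : ℕ} {a : G} :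
    a ∈ torSub A hA k ↔ a ∈ A ∧ a ^ k = 1 := Iff.rfl

theorem torSub_normal (A : Subgroup G) [hn : A.Normal] (hA : ∀ a ∈ A, ∀ b ∈ A, a * b = b * a)
    (k : ℕ) : (torSub A hA k).Normal := by
  constructor
  intro a ha g
  rw [mem_torSub] at ha ⊢
  refine ⟨hn.conj_mem a ha.1 g, ?_⟩
  rw [conj_pow, ha.2]; group

theorem OC.exists_normal [Finite G] [Nontrivial G] (hO : OC G) :
    ∃ B : Subgroup G, B.Normal ∧ B ≠ ⊥ ∧ ((∀ b ∈ B, b ^ 4 = 1) ∨ (∀ b ∈ B, b ^ 3 = 1)) := by
  classical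
  have hs : Group.IsSolvable G := hO.solvable
  have hex : ∃ n, derivedSeries G n = ⊥ := hs.solvable
  have hm := Nat.find_spec hex
  have hm0 : Nat.find hex ≠ 0 := by
    intro h0
    rw [h0, derivedSeries_zero] at hm
    exact top_ne_bot hm
  obtain ⟨k, hk⟩ := Nat.exists_eq_succ_of_ne_zero hm0
  have hAne : derivedSeries G k ≠ ⊥ := Nat.find_min hex (by omega)
  rw [hk, derivedSeries_succ] at hm
  have hAn : (derivedSeries G k).Normal := derivedSeries_normal G k
  have hA : ∀ a ∈ derivedSeries G k, ∀ b ∈ derivedSeries G k, a * b = b * a := by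
    intro a ha b hb
    have : ⁅a, b⁆ ∈ ⁅derivedSeries G k, derivedSeries G k⁆ := Subgroup.commutator_mem_commutator ha hb
    rw [hm, Subgroup.mem_bot] at this
    exact commutatorElement_eq_one_iff_mul_comm.1 this
  obtain ⟨⟨a, haA⟩, ha1⟩ := Subgroup.ne_bot_iff_exists_ne_one.1 hAne
  have ha1' : a ≠ 1 := fun h => ha1 (Subtype.ext h)
  rcases hO a with h | h
  · refine ⟨torSub _ hA 4, torSub_normal _ hA 4, ?_, Or.inl (fun b hb => hb.2)⟩
    intro hbot
    have : a ∈ torSub _ hA 4 := ⟨haA, h⟩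
    rw [hbot, Subgroup.mem_bot] at this
    exact ha1' this
  · refine ⟨torSub _ hA 3, torSub_normal _ hA 3, ?_, Or.inr (fun b hb => hb.2)⟩
    intro hbot
    have : a ∈ torSub _ hA 3 := ⟨haA, h⟩
    rw [hbot, Subgroup.mem_bot] at this
    exact ha1' this

theorem le_normalCore_of_pgroup [Finite G] (p : ℕ) [Fact p.Prime] (P : Sylow p G)
    (B : Subgroup G) [B.Normal] (hB : IsPGroup p B) : B ≤ (P : Subgroup G).normalCore := by
  obtain ⟨Q, hQ⟩ := hB.exists_le_sylow
  obtain ⟨g, rfl⟩ := MulAction.exists_smul_eq G Q P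
  rw [Subgroup.normal_le_normalCore, Sylow.coe_subgroup_smul,
    ← Subgroup.Normal.conj_smul_eq_self g B]
  exact Subgroup.pointwise_smul_le_pointwise_smul_iff.2 hQ

theorem isPGroup_of_pow {p k : ℕ} (B : Subgroup G) (hB : ∀ b ∈ B, b ^ p ^ k = 1) : IsPGroup p B :=
  fun g => ⟨k, Subtype.ext (by simpa using hB g g.2)⟩

theorem OC.core_dichotomy [Finite G] [Nontrivial G] (hO : OC G) (T : Sylow 2 G) (P : Sylow 3 G) :
    (T : Subgroup G).normalCore ≠ ⊥ ∨ (P : Subgroup G).normalCore ≠ ⊥ := by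
  obtain ⟨B, hBn, hB1, hB | hB⟩ := hO.exists_normal
  · left
    intro h
    have := le_normalCore_of_pgroup 2 T B (isPGroup_of_pow (k := 2) B hB)
    rw [h] at this
    exact hB1 (le_bot_iff.1 this)
  · right
    intro h
    have := le_normalCore_of_pgroup 3 P B (isPGroup_of_pow (k := 1) B (by simpa using hB))
    rw [h] at this
    exact hB1 (le_bot_iff.1 this)

theorem OC.core2_pow (hO : OC G) (T : Sylow 2 G) {n : G} (hn : n ∈ (T : Subgroup G).normalCore) :
    n ^ 4 = 1 := by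
  have hnT : n ∈ (T : Subgroup G) := Subgroup.normalCore_le _ hn
  obtain ⟨k, hk⟩ := T.isPGroup' ⟨n, hnT⟩
  exact hO.pow4_of_two (k := k) (by simpa using congrArg Subtype.val hk)

theorem OC.core3_pow (hO : OC G) (P : Sylow 3 G) {n : G} (hn : n ∈ (P : Subgroup G).normalCore) :
    n ^ 3 = 1 := by
  have hnP : n ∈ (P : Subgroup G) := Subgroup.normalCore_le _ hn
  obtain ⟨k, hk⟩ := P.isPGroup' ⟨n, hnP⟩
  exact hO.pow3_of_three (k := k) (by simpa using congrArg Subtype.val hk)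

/-- Coset of an element of order 3 modulo a normal subgroup not containing it. -/
theorem OC.pow3_coset (hO : OC G) (N : Subgroup G) [N.Normal] {x : G} (hx : x ^ 3 = 1)
    (hxN : x ∉ N) {n : G} (hn : n ∈ N) : (n * x) ^ 3 = 1 := by
  rcases hO (n * x) with h | h
  · exfalso
    apply hxN
    have h1 : ((n * x : G) : G ⧸ N) = (x : G ⧸ N) := by
      rw [QuotientGroup.mk_mul, (QuotientGroup.eq_one_iff n).2 hn, one_mul]
    have h4 : (x : G ⧸ N) ^ 4 = 1 := by rw [← h1, ← QuotientGroup.mk_pow, h]; rfl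
    have h3 : (x : G ⧸ N) ^ 3 = 1 := by rw [← QuotientGroup.mk_pow, hx]; rfl
    exact (QuotientGroup.eq_one_iff x).1 (eq_one_of_pow4_pow3 h4 h3)
  · exact h

theorem OC.sigma_A1 (hO : OC G) (N : Subgroup G) [N.Normal] {x : G} (hx : x ^ 3 = 1)
    (hxN : x ∉ N) (n : N) :
    n * (MulAut.conjNormal x : MulAut N) n *
      (MulAut.conjNormal x : MulAut N) ((MulAut.conjNormal x : MulAut N) n) = 1 := by
  apply Subtype.ext
  simp only [Subgroup.coe_mul, MulAut.conjNormal_apply, Subgroup.coe_one]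
  have h := hO.pow3_coset N hx hxN n.2
  have e : (n : G) * (x * n * x⁻¹) * (x * (x * n * x⁻¹) * x⁻¹)
      = ((n : G) * x) * ((n : G) * x) * ((n : G) * x) * (x * x * x)⁻¹ := by group
  have hx' : x * x * x = 1 := by rw [← hx]; rw [pow_succ, pow_succ, pow_one]
  have h' : ((n : G) * x) * ((n : G) * x) * ((n : G) * x) = 1 := by
    rw [← h]; rw [pow_succ, pow_succ, pow_one]
  rw [e, h', hx']; simp

theorem OC.sigma_fp (hO : OC G) (N : Subgroup G) [N.Normal] (hN4 : ∀ n ∈ N, n ^ 4 = 1) {x : G}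
    (hx : x ^ 3 = 1) (hx1 : x ≠ 1) (n : N)
    (h : (MulAut.conjNormal x : MulAut N) n = n) : n = 1 := by
  have h' := congrArg Subtype.val h
  simp only [MulAut.conjNormal_apply] at h'
  have hc : Commute (n : G) x := by
    have : x * n = n * x := by
      calc x * (n : G) = (x * n * x⁻¹) * x := by group
        _ = n * x := by rw [h']
    exact this.symm
  rcases hO.comm hc (hN4 _ n.2) hx with h1 | h1
  · exact Subtype.ext h1
  · exact absurd h1 hx1

/-- The case where the 3-core is nontrivial. -/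
theorem caseB [Finite G] (hO : OC G) (P : Sylow 3 G) (hN : (P : Subgroup G).normalCore ≠ ⊥)
    (z : G) (hz2 : z ^ 2 = 1) (hz1 : z ≠ 1) (w : G) (hw : orderOf w = 4) :
    Cfsg.IsElementaryAbelian 3 (P : Subgroup G).normalCore ∧
      ((IsCyclic (G ⧸ (P : Subgroup G).normalCore) ∧ (P : Subgroup G).normalCore.index = 4) ∨
        Nonempty (G ⧸ (P : Subgroup G).normalCore ≃* QuaternionGroup 2)) := by
  set N := (P : Subgroup G).normalCore with hNdef
  have hN3 : ∀ n ∈ N, n ^ 3 = 1 := fun n hn => hO.core3_pow P hn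
  -- involutions invert N
  have hinvol : ∀ u : G, u ^ 2 = 1 → u ≠ 1 →
      (∀ n ∈ N, u * n * u⁻¹ = n⁻¹) ∧ ∀ a b : N, a * b = b * a := by
    intro u hu2 hu1
    have huu : u * u = 1 := by rw [← sq]; exact hu2
    have hτ2 : ∀ n : N, (MulAut.conjNormal u : MulAut N) ((MulAut.conjNormal u : MulAut N) n) = n := by
      intro n
      apply Subtype.ext
      simp only [MulAut.conjNormal_apply]
      calc u * (u * (n : G) * u⁻¹) * u⁻¹ = (u * u) * n * (u * u)⁻¹ := by group
        _ = n := by rw [huu]; simp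
    have hfp : ∀ n : N, (MulAut.conjNormal u : MulAut N) n = n → n = 1 := by
      intro n h
      have h' := congrArg Subtype.val h
      simp only [MulAut.conjNormal_apply] at h'
      have hc : Commute u (n : G) := by
        calc u * (n : G) = (u * n * u⁻¹) * u := by group
          _ = n * u := by rw [h']
      rcases hO.comm hc (pow4_of_pow2 hu2) (hN3 _ n.2) with h1 | h1
      · exact absurd h1 hu1
      · exact Subtype.ext h1
    obtain ⟨h1, h2⟩ := inv_of_fpf_invol (MulAut.conjNormal u : MulAut N) hτ2 hfp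
    refine ⟨fun n hn => ?_, h2⟩
    have := congrArg Subtype.val (h1 ⟨n, hn⟩)
    simpa [MulAut.conjNormal_apply] using this
  have hNcomm : ∀ a b : N, a * b = b * a := (hinvol z hz2 hz1).2
  have hEA : Cfsg.IsElementaryAbelian 3 N := ⟨⟨⟨hNcomm⟩⟩, hN3⟩
  refine ⟨hEA, ?_⟩
  -- the centralizer of N is N
  obtain ⟨⟨n₀, hn₀N⟩, hn₀⟩ := Subgroup.ne_bot_iff_exists_ne_one.1 hN
  have hn₀1 : n₀ ≠ 1 := fun h => hn₀ (Subtype.ext h)
  have hC3 : ∀ c ∈ Subgroup.centralizer (N : Set G), c ^ 3 = 1 := by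
    intro c hc
    rcases hO c with h4 | h3
    · have hcomm : Commute c n₀ := (Subgroup.mem_centralizer_iff.1 hc n₀ hn₀N).symm
      rcases hO.comm hcomm h4 (hN3 _ hn₀N) with h1 | h1
      · rw [h1, one_pow]
      · exact absurd h1 hn₀1
    · exact h3
  have hCN : Subgroup.centralizer (N : Set G) ≤ N :=
    le_normalCore_of_pgroup 3 P _ (isPGroup_of_pow (k := 1) _ (by simpa using hC3))
  have hprod : ∀ u u' : G, u ^ 2 = 1 → u ≠ 1 → u' ^ 2 = 1 → u' ≠ 1 → u * u' ∈ N := by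
    intro u u' hu2 hu1 hu2' hu1'
    apply hCN
    rw [Subgroup.mem_centralizer_iff]
    intro n hn
    have e1 := (hinvol u' hu2' hu1').1 n hn
    have e2 := (hinvol u hu2 hu1).1 n⁻¹ (inv_mem hn)
    rw [inv_inv] at e2
    have : (u * u') * n * (u * u')⁻¹ = n := by
      calc (u * u') * n * (u * u')⁻¹ = u * (u' * n * u'⁻¹) * u⁻¹ := by group
        _ = n := by rw [e1, e2]
    calc n * (u * u') = ((u * u') * n * (u * u')⁻¹) * (u * u') := by rw [this]
      _ = u * u' * n := by group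
  -- the quotient
  have hzN : z ∉ N := fun h => hz1 (eq_one_of_pow2_pow3 hz2 (hN3 z h))
  have hzb1 : (z : G ⧸ N) ≠ 1 := fun h => hzN ((QuotientGroup.eq_one_iff z).1 h)
  have hzb2 : (z : G ⧸ N) * (z : G ⧸ N) = 1 := by
    rw [← QuotientGroup.mk_mul, ← sq, hz2]; rfl
  have hzbinv : (z : G ⧸ N)⁻¹ = (z : G ⧸ N) := (eq_inv_of_mul_eq_one_left hzb2).symm
  have hcent : ∀ q : G ⧸ N, q * (z : G ⧸ N) = (z : G ⧸ N) * q := by
    intro q
    obtain ⟨g, rfl⟩ := QuotientGroup.mk_surjective q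
    have h1 : (g * z * g⁻¹) ^ 2 = 1 := by rw [conj_pow, hz2]; group
    have h2 : g * z * g⁻¹ ≠ 1 := by
      intro h
      apply hz1
      have : z = g⁻¹ * (g * z * g⁻¹) * g := by group
      rw [this, h]; group
    have h3 := hprod _ _ h1 h2 hz2 hz1
    have h4 := (QuotientGroup.eq_one_iff _).2 h3
    simp only [QuotientGroup.mk_mul, QuotientGroup.mk_inv] at h4
    have h5 : (g : G ⧸ N) * (z : G ⧸ N) * (g : G ⧸ N)⁻¹ = (z : G ⧸ N)⁻¹ :=
      eq_inv_of_mul_eq_one_left h4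
    rw [hzbinv] at h5
    calc (g : G ⧸ N) * (z : G ⧸ N) = ((g : G ⧸ N) * (z : G ⧸ N) * (g : G ⧸ N)⁻¹) * (g : G ⧸ N) := by
          group
      _ = (z : G ⧸ N) * (g : G ⧸ N) := by rw [h5]
  have hQ4 : ∀ q : G ⧸ N, q ^ 4 = 1 := by
    intro q
    obtain ⟨g, rfl⟩ := QuotientGroup.mk_surjective q
    rcases hO g with h | h
    · rw [← QuotientGroup.mk_pow, h]; rfl
    · have hg3 : (g : G ⧸ N) ^ 3 = 1 := by rw [← QuotientGroup.mk_pow, h]; rfl
      have hc : Commute (z : G ⧸ N) (g : G ⧸ N) := (hcent g).symm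
      rcases hO (z * g) with h' | h'
      · have : ((z : G ⧸ N) * (g : G ⧸ N)) ^ 4 = 1 := by
          rw [← QuotientGroup.mk_mul, ← QuotientGroup.mk_pow, h']; rfl
        rw [hc.mul_pow, show (z : G ⧸ N) ^ 4 = 1 from by
          rw [← QuotientGroup.mk_pow, pow4_of_pow2 hz2]; rfl, one_mul] at this
        exact this
      · exfalso
        have : ((z : G ⧸ N) * (g : G ⧸ N)) ^ 3 = 1 := by
          rw [← QuotientGroup.mk_mul, ← QuotientGroup.mk_pow, h']; rfl
        rw [hc.mul_pow, hg3, mul_one] at this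
        have hz2' : (z : G ⧸ N) ^ 2 = 1 := by rw [sq]; exact hzb2
        exact hzb1 (eq_one_of_pow2_pow3 hz2' this)
  have hQ2 : ∀ q : G ⧸ N, q ^ 2 = 1 → q = 1 ∨ q = (z : G ⧸ N) := by
    intro q hq
    obtain ⟨u, rfl⟩ := QuotientGroup.mk_surjective q
    have hu2N : u ^ 2 ∈ N := by
      rw [← QuotientGroup.eq_one_iff, QuotientGroup.mk_pow]; exact hq
    rcases hO u with h | h
    · have h22 : (u ^ 2) ^ 2 = 1 := by rw [← pow_mul]; exact h
      have hu2 : u ^ 2 = 1 := eq_one_of_pow2_pow3 h22 (hN3 _ hu2N)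
      by_cases hu1 : u = 1
      · left; rw [hu1]; rfl
      · right
        have h3 := hprod _ _ hu2 hu1 hz2 hz1
        have h4 := (QuotientGroup.eq_one_iff _).2 h3
        rw [QuotientGroup.mk_mul] at h4
        rw [eq_inv_of_mul_eq_one_left h4, hzbinv]
    · left
      have hu3 : (u : G ⧸ N) ^ 3 = 1 := by rw [← QuotientGroup.mk_pow, h]; rfl
      exact eq_one_of_pow2_pow3 hq hu3
  have hw4 : w ^ 4 = 1 := by rw [← hw]; exact pow_orderOf_eq_one w
  have hwb : orderOf (w : G ⧸ N) = 4 := by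
    have h1 : (w : G ⧸ N) ^ 2 ^ 2 = 1 := hQ4 _
    refine orderOf_eq_prime_pow (p := 2) (n := 1) ?_ h1
    intro h
    rw [pow_one] at h
    have hw2N : w ^ 2 ∈ N := by
      rw [← QuotientGroup.eq_one_iff, QuotientGroup.mk_pow]; exact h
    have h22 : (w ^ 2) ^ 2 = 1 := by rw [← pow_mul]; exact hw4
    have hw2 : w ^ 2 = 1 := eq_one_of_pow2_pow3 h22 (hN3 _ hw2N)
    have := orderOf_dvd_of_pow_eq_one hw2
    rw [hw] at this
    omega
  have hzbord : orderOf (z : G ⧸ N) = 2 := by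
    refine orderOf_eq_prime ?_ hzb1
    rw [sq]; exact hzb2
  have hQP : IsPGroup 2 (G ⧸ N) := fun q => ⟨2, hQ4 q⟩
  have huniq : ∀ H K : Subgroup (G ⧸ N), Nat.card H = 2 → Nat.card K = 2 → H = K := by
    have key : ∀ H : Subgroup (G ⧸ N), Nat.card H = 2 → H = Subgroup.zpowers (z : G ⧸ N) := by
      intro H hH
      have hne : H ≠ ⊥ := by
        rw [← Subgroup.one_lt_card_iff_ne_bot, hH]; norm_num
      obtain ⟨⟨h, hhH⟩, hh1⟩ := Subgroup.ne_bot_iff_exists_ne_one.1 hne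
      have hh1' : h ≠ 1 := fun e => hh1 (Subtype.ext e)
      have hh2 : h ^ 2 = 1 := by
        have := pow_card_eq_one' (G := H) (x := ⟨h, hhH⟩)
        rw [hH] at this
        simpa using congrArg Subtype.val this
      have hhz : h = (z : G ⧸ N) := (hQ2 h hh2).resolve_left hh1'
      symm
      apply Subgroup.eq_of_le_of_card_ge
      · rw [Subgroup.zpowers_le, ← hhz]; exact hhH
      · rw [hH, Nat.card_zpowers, hzbord]
    intro H K hH hK
    rw [key H hH, key K hK]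
  rcases Cfsg.Agent.S0016.result 2 hQP huniq with hcyc | ⟨-, n, ⟨e⟩⟩
  · left
    refine ⟨hcyc, ?_⟩
    rw [Subgroup.index_eq_card]
    obtain ⟨γ, hγ⟩ := hcyc.exists_generator
    have h1 : orderOf γ = Nat.card (G ⧸ N) := orderOf_eq_card_of_forall_mem_zpowers hγ
    have h2 : Nat.card (G ⧸ N) ∣ 4 := by rw [← h1]; exact orderOf_dvd_of_pow_eq_one (hQ4 γ)
    have h3 : 4 ∣ Nat.card (G ⧸ N) := by rw [← hwb]; exact orderOf_dvd_natCard _
    exact Nat.dvd_antisymm h2 h3
  · -- quaternion of order 4 * 2 ^ n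
    have ha : orderOf (QuaternionGroup.a 1 : QuaternionGroup (2 ^ n)) = 2 * 2 ^ n :=
      QuaternionGroup.orderOf_a_one
    have hb : orderOf (e.symm (QuaternionGroup.a 1)) = 2 * 2 ^ n :=
      (MulEquiv.orderOf_eq e.symm _).trans ha
    have hc : 2 * 2 ^ n ∣ 4 := by rw [← hb]; exact orderOf_dvd_of_pow_eq_one (hQ4 _)
    have hn : n = 0 ∨ n = 1 := by
      rcases n with _ | _ | m
      · left; rfl
      · right; rfl
      · exfalso
        have h8 : 8 ∣ 2 * 2 ^ (m + 1 + 1) := ⟨2 ^ m, by ring⟩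
        have := Nat.le_of_dvd (by norm_num) (h8.trans hc)
        omega
    rcases hn with rfl | rfl
    · left
      have e' : G ⧸ N ≃* QuaternionGroup 1 := e
      have hq : IsCyclic (QuaternionGroup 1) := QuaternionGroup.quaternionGroup_one_isCyclic
      have hcyc : IsCyclic (G ⧸ N) := isCyclic_of_surjective e'.symm e'.symm.surjective
      refine ⟨hcyc, ?_⟩
      rw [Subgroup.index_eq_card, Nat.card_congr e'.toEquiv, Nat.card_eq_fintype_card,
        QuaternionGroup.card]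
    · right
      have e' : G ⧸ N ≃* QuaternionGroup 2 := e
      exact ⟨e'⟩

end Cfsg.Agent.Lib.Helper55.OC4
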