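import Mathlib
import Cfsg.Prelude
import Cfsg.Agent.Lib.Helper55.OC4B
import Cfsg.Agent.S0041

/-!
Groups all of whose elements have order 1, 2, 3 or 4: the case where the 2-core is nontrivial.
-/

set_option autoImplicit false

namespace Cfsg.Agent.Lib.Helper55.OC4

universe u

open scoped commutatorElement

variable {G : Type u} [Group G]

theorem OC.prime_dvd_card [Finite G] (hO : OC G) {r : ℕ} (hr : r.Prime) (hrd : r ∣ Nat.card G) :
    r = 2 ∨ r = 3 := by
  have : Fact r.Prime := ⟨hr⟩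
  obtain ⟨g, hg⟩ := exists_prime_orderOf_dvd_card' r hrd
  rcases hO g with h | h
  · left
    have h4 : r ∣ 4 := hg ▸ orderOf_dvd_of_pow_eq_one h
    have h2 : r ∣ 2 := hr.dvd_of_dvd_pow (show r ∣ 2 ^ 2 from h4)
    exact (Nat.prime_dvd_prime_iff_eq hr Nat.prime_two).1 h2
  · right
    have h3 : r ∣ 3 := hg ▸ orderOf_dvd_of_pow_eq_one h
    exact (Nat.prime_dvd_prime_iff_eq hr Nat.prime_three).1 h3

theorem OC.not_nine_dvd [Finite G] (hO : OC G) (T : Sylow 2 G)
    (hN : (T : Subgroup G).normalCore ≠ ⊥) : ¬ 9 ∣ Nat.card G := by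
  intro h9
  set N := (T : Subgroup G).normalCore with hNdef
  have hN4 : ∀ n ∈ N, n ^ 4 = 1 := fun n hn => hO.core2_pow T hn
  obtain ⟨A, hA⟩ := Sylow.exists_subgroup_card_pow_prime 3 (show 3 ^ 2 ∣ Nat.card G from h9)
  have hAc : IsMulCommutative A := IsPGroup.isMulCommutative_of_card_eq_prime_sq (p := 3) hA
  have hA3 : ∀ a ∈ A, a ^ 3 = 1 := by
    intro a ha
    have := pow_card_eq_one' (G := A) (x := ⟨a, ha⟩)
    rw [hA] at this
    exact hO.pow3_of_three (k := 2) (by simpa using congrArg Subtype.val this)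
  set V := N ⊓ Subgroup.centralizer (N : Set G) with hV
  have hVc : IsMulCommutative V := ⟨⟨fun a b => by
    apply Subtype.ext
    have ha : (a : G) ∈ Subgroup.centralizer (N : Set G) := a.2.2
    have hb : (b : G) ∈ N := b.2.1
    exact (Subgroup.mem_centralizer_iff.1 ha b hb).symm⟩⟩
  have hVne : V ≠ ⊥ := by
    have hnt : Nontrivial N := (Subgroup.nontrivial_iff_ne_bot N).2 hN
    have hP : IsPGroup 2 N := isPGroup_of_pow (k := 2) N hN4
    have hcn := hP.center_nontrivial
    obtain ⟨c, hc⟩ := exists_ne (1 : Subgroup.center N)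
    intro hbot
    have hmem : ((c : N) : G) ∈ V := by
      rw [hV, Subgroup.mem_inf]
      refine ⟨(c : N).2, ?_⟩
      rw [Subgroup.mem_centralizer_iff]
      intro h hh
      have := Subgroup.mem_center_iff.1 c.2 ⟨h, hh⟩
      exact congrArg Subtype.val this
    rw [hbot, Subgroup.mem_bot] at hmem
    apply hc
    apply Subtype.ext; apply Subtype.ext; simpa using hmem
  have hAV : A ≤ Subgroup.normalizer (V : Set G) := by
    rw [Subgroup.normalizer_eq_top]; exact le_top
  have hfpf : ∀ a ∈ A, a ≠ 1 → V ⊓ Subgroup.centralizer {a} = ⊥ := by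
    intro a ha ha1
    rw [eq_bot_iff]
    intro v hv
    rw [Subgroup.mem_bot]
    have hvN : v ∈ N := hv.1.1
    have hva : v ∈ Subgroup.centralizer {a} := hv.2
    rw [Subgroup.mem_centralizer_singleton_iff] at hva
    rcases hO.comm (show Commute v a from hva) (hN4 v hvN) (hA3 a ha) with h | h
    · exact h
    · exact absurd h ha1
  have hcyc := Cfsg.Agent.S0041.result A V hVne hAV hfpf (Or.inl hAc)
  obtain ⟨γ, hγ⟩ := hcyc.exists_generator
  have h1 : orderOf γ = Nat.card A := orderOf_eq_card_of_forall_mem_zpowers hγ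
  have h2 : γ ^ 3 = 1 := Subtype.ext (by simpa using hA3 γ γ.2)
  have h3 := orderOf_dvd_of_pow_eq_one h2
  rw [h1, hA] at h3
  norm_num at h3

theorem OC.sylow2_index [Finite G] (hO : OC G) (T : Sylow 2 G)
    (hN : (T : Subgroup G).normalCore ≠ ⊥) {x : G} (hx : x ^ 3 = 1) (hx1 : x ≠ 1) :
    (T : Subgroup G).index = 3 := by
  have h9 := hO.not_nine_dvd T hN
  have hm0 : (T : Subgroup G).index ≠ 0 := Subgroup.index_ne_zero_of_finite
  have hmul : Nat.card T * (T : Subgroup G).index = Nat.card G := Subgroup.card_mul_index _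
  have h2 : ¬ 2 ∣ (T : Subgroup G).index := T.not_dvd_index
  have hpow := Nat.eq_prime_pow_of_unique_prime_dvd (p := 3) hm0 (by
    intro d hd hdm
    rcases hO.prime_dvd_card hd (hdm.trans ⟨Nat.card T, by rw [← hmul, mul_comm]⟩) with h | h
    · exact absurd (h ▸ hdm) h2
    · exact h)
  obtain ⟨k, hk⟩ : ∃ k, (T : Subgroup G).index = 3 ^ k := ⟨_, hpow⟩
  have h3 : 3 ∣ (T : Subgroup G).index := by
    have hx3 : orderOf x = 3 := orderOf_eq_prime hx hx1
    have : 3 ∣ Nat.card G := hx3 ▸ orderOf_dvd_natCard x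
    rw [← hmul] at this
    rcases (Nat.Prime.dvd_mul Nat.prime_three).1 this with h | h
    · exfalso
      rw [T.card_eq_multiplicity] at h
      have := Nat.prime_three.dvd_of_dvd_pow h
      norm_num at this
    · exact h
  rcases k with _ | _ | k
  · rw [hk] at h3; norm_num at h3
  · rw [hk]; norm_num
  · exfalso
    apply h9
    have : 9 ∣ (T : Subgroup G).index := by
      rw [hk]; exact ⟨3 ^ k, by ring⟩
    exact this.trans ⟨Nat.card T, by rw [← hmul, mul_comm]⟩

theorem OC.core2_index [Finite G] (T : Sylow 2 G) (hT : (T : Subgroup G).index = 3) :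
    (T : Subgroup G).normalCore.index = 3 ∨ (T : Subgroup G).normalCore.index = 6 := by
  have h1 : (T : Subgroup G).index ∣ (T : Subgroup G).normalCore.index :=
    Subgroup.index_dvd_of_le (Subgroup.normalCore_le _)
  have hc : Nat.card (G ⧸ (T : Subgroup G)) = 3 := by rw [← Subgroup.index_eq_card, hT]
  have h2 : (T : Subgroup G).normalCore.index ∣ 6 := by
    rw [Subgroup.normalCore_eq_ker, Subgroup.index_ker]
    have := Subgroup.card_subgroup_dvd_card (MulAction.toPermHom G (G ⧸ (T : Subgroup G))).range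
    rw [Nat.card_perm, hc] at this
    exact this
  rw [hT] at h1
  obtain ⟨c, hc'⟩ := h1
  have hc2 : c ∣ 2 := by
    rw [hc'] at h2
    exact (Nat.mul_dvd_mul_iff_left (by norm_num : 0 < 3)).1 (by simpa using h2)
  rcases (Nat.dvd_prime Nat.prime_two).1 hc2 with h | h
  · left; rw [hc', h]
  · right; rw [hc', h]

theorem caseA3 [Finite G] (hO : OC G) (T : Sylow 2 G)
    (hidx : (T : Subgroup G).normalCore.index = 3)
    {x : G} (hx : x ^ 3 = 1) (hx1 : x ≠ 1) {w : G} (hw : orderOf w = 4) :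
    IsPGroup 2 (T : Subgroup G).normalCore ∧ Monoid.exponent (T : Subgroup G).normalCore = 4 ∧
      Group.nilpotencyClass (T : Subgroup G).normalCore ≤ 2 ∧
      (T : Subgroup G).normalCore.index = 3 := by
  set N := (T : Subgroup G).normalCore with hNdef
  have hN4 : ∀ n ∈ N, n ^ 4 = 1 := fun n hn => hO.core2_pow T hn
  have hxN : x ∉ N := fun h => hx1 (eq_one_of_pow4_pow3 (hN4 x h) hx)
  refine ⟨isPGroup_of_pow (k := 2) N hN4, ?_, ?_, hidx⟩
  · apply Nat.dvd_antisymm
    · exact Monoid.exponent_dvd_of_forall_pow_eq_one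
        (fun g => Subtype.ext (by simpa using hN4 g g.2))
    · have hwN : w ∈ N := by
        have hcard : Nat.card (G ⧸ N) = 3 := by rw [← Subgroup.index_eq_card, hidx]
        have h3 : (w : G ⧸ N) ^ 3 = 1 := by rw [← hcard]; exact pow_card_eq_one'
        have h4 : (w : G ⧸ N) ^ 4 = 1 := by
          rw [← QuotientGroup.mk_pow, ← hw, pow_orderOf_eq_one]; rfl
        exact (QuotientGroup.eq_one_iff w).1 (eq_one_of_pow4_pow3 h4 h3)
      have : orderOf (⟨w, hwN⟩ : N) = 4 := by rw [Subgroup.orderOf_mk, hw]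
      rw [← this]; exact Monoid.order_dvd_exponent _
  · have hcl : ∀ a b : N, ⁅a, b⁆ ∈ Subgroup.center N :=
      comm_mem_center (MulAut.conjNormal x : MulAut N) (hO.sigma_A1 N hx hxN)
        (hO.sigma_fp N hN4 hx hx1)
    have hucs : Subgroup.upperCentralSeries N 2 = ⊤ := by
      rw [eq_top_iff]
      intro a _
      rw [show 2 = 1 + 1 from rfl, Subgroup.mem_upperCentralSeries_succ_iff]
      intro b
      rw [Subgroup.upperCentralSeries_one]
      have := hcl a b
      rwa [commutatorElement_def] at this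
    have hnil : Group.IsNilpotent N := ⟨⟨2, hucs⟩⟩
    exact Subgroup.upperCentralSeries_eq_top_iff_nilpotencyClass_le.1 hucs

theorem perm3_conj : ∀ c s : Equiv.Perm (Fin 3), c ^ 3 = 1 → c ≠ 1 → s ^ 2 = 1 → s ≠ 1 →
    s * c * s⁻¹ * c = 1 := by decide

theorem caseA6 [Finite G] (hO : OC G) (T : Sylow 2 G) (hT : (T : Subgroup G).index = 3)
    (hidx : (T : Subgroup G).normalCore.index = 6) {x : G} (hx : x ^ 3 = 1) (hx1 : x ≠ 1) :
    Cfsg.IsElementaryAbelian 2 (T : Subgroup G).normalCore ∧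
      Nonempty (G ⧸ (T : Subgroup G).normalCore ≃* Equiv.Perm (Fin 3)) := by
  set N := (T : Subgroup G).normalCore with hNdef
  have hN4 : ∀ n ∈ N, n ^ 4 = 1 := fun n hn => hO.core2_pow T hn
  have hxN : x ∉ N := fun h => hx1 (eq_one_of_pow4_pow3 (hN4 x h) hx)
  -- the isomorphism
  let φ := MulAction.toPermHom G (G ⧸ (T : Subgroup G))
  have hker : N = φ.ker := Subgroup.normalCore_eq_ker _
  have hc3 : Nat.card (G ⧸ (T : Subgroup G)) = 3 := by rw [← Subgroup.index_eq_card, hT]
  have hsurj : Function.Surjective φ := by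
    rw [← MonoidHom.range_eq_top]
    apply Subgroup.eq_top_of_card_eq
    rw [← Subgroup.index_ker, ← hker, hidx, Nat.card_perm, hc3]; rfl
  let ψ : G ⧸ N ≃* Equiv.Perm (Fin 3) :=
    (QuotientGroup.quotientMulEquivOfEq hker).trans
      ((QuotientGroup.quotientKerEquivOfSurjective φ hsurj).trans
        (Equiv.permCongrHom (Finite.equivFinOfCardEq hc3)))
  refine ⟨?_, ⟨ψ⟩⟩
  -- an element inverting x modulo N
  have hxb3 : (x : G ⧸ N) ^ 3 = 1 := by rw [← QuotientGroup.mk_pow, hx]; rfl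
  have hxb1 : (x : G ⧸ N) ≠ 1 := fun h => hxN ((QuotientGroup.eq_one_iff x).1 h)
  have hs2 : (Equiv.swap (0 : Fin 3) 1) ^ 2 = 1 := by decide
  have hs1 : (Equiv.swap (0 : Fin 3) 1) ≠ 1 := by decide
  obtain ⟨g, hg⟩ := QuotientGroup.mk_surjective (ψ.symm (Equiv.swap (0 : Fin 3) 1))
  have hψg : ψ (g : G ⧸ N) = Equiv.swap (0 : Fin 3) 1 := by rw [hg]; simp
  have hc3' : (ψ (x : G ⧸ N)) ^ 3 = 1 := by rw [← map_pow, hxb3, map_one]
  have hc1' : ψ (x : G ⧸ N) ≠ 1 := fun h => hxb1 ((MulEquiv.map_eq_one_iff ψ).1 h)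
  have hconj : (g : G ⧸ N) * (x : G ⧸ N) * (g : G ⧸ N)⁻¹ * (x : G ⧸ N) = 1 := by
    apply ψ.injective
    rw [map_mul, map_mul, map_mul, map_inv, map_one, hψg]
    exact perm3_conj _ _ hc3' hc1' hs2 hs1
  have hgb2 : (g : G ⧸ N) ^ 2 = 1 := by
    apply ψ.injective
    rw [map_pow, hψg, map_one]; exact hs2
  have hgb1 : (g : G ⧸ N) ≠ 1 := by
    intro h
    rw [h, map_one] at hψg
    exact hs1 hψg.symm
  have hgx : g * x * g⁻¹ * x ∈ N := by
    rw [← QuotientGroup.eq_one_iff]
    exact hconj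
  -- σ
  set σ : MulAut N := MulAut.conjNormal x with hσ
  have hA1 := hO.sigma_A1 N hx hxN
  have hfp := hO.sigma_fp N hN4 hx hx1
  -- adjust g
  have hm : x * (g * x * g⁻¹) ∈ N := by
    have := (inferInstance : N.Normal).conj_mem _ hgx x
    have e : x * (g * x * g⁻¹ * x) * x⁻¹ = x * (g * x * g⁻¹) := by group
    rwa [e] at this
  have hinj : Function.Injective (fun n : N => (σ n)⁻¹ * n) := by
    intro n n' h
    simp only at h
    have h1 : σ (n' * n⁻¹) = n' * n⁻¹ := by
      rw [map_mul, map_inv]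
      calc σ n' * (σ n)⁻¹ = σ n' * ((σ n)⁻¹ * n) * n⁻¹ := by group
        _ = σ n' * ((σ n')⁻¹ * n') * n⁻¹ := by rw [h]
        _ = n' * n⁻¹ := by group
    have := hfp _ h1
    rw [mul_inv_eq_one] at this
    exact this.symm
  obtain ⟨n, hn⟩ := Finite.surjective_of_injective hinj ⟨x * (g * x * g⁻¹), hm⟩
  have hn' : (x * (n : G) * x⁻¹)⁻¹ * n = x * (g * x * g⁻¹) := by
    have := congrArg Subtype.val hn
    simpa only [Subgroup.coe_mul, InvMemClass.coe_inv, hσ, MulAut.conjNormal_apply] using this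
  set t : G := (n : G) * g with ht
  have htx : t * x * t⁻¹ = x⁻¹ := by
    have e1 : g * x * g⁻¹ = x⁻¹ * (x * (g * x * g⁻¹)) := by group
    calc t * x * t⁻¹ = n * (g * x * g⁻¹) * (n : G)⁻¹ := by rw [ht]; group
      _ = n * (x⁻¹ * ((x * (n : G) * x⁻¹)⁻¹ * n)) * (n : G)⁻¹ := by rw [e1, ← hn']
      _ = x⁻¹ := by group
  have htq : (t : G ⧸ N) = (g : G ⧸ N) := by
    rw [ht, QuotientGroup.mk_mul, (QuotientGroup.eq_one_iff _).2 n.2, one_mul]
  have httN : t * t ∈ N := by
    rw [← QuotientGroup.eq_one_iff, QuotientGroup.mk_mul, htq, ← sq]; exact hgb2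
  have htt : t * t = 1 := by
    have hc : Commute (t * t) x := by
      have e : t * x = x⁻¹ * t := by
        calc t * x = (t * x * t⁻¹) * t := by group
          _ = x⁻¹ * t := by rw [htx]
      calc t * t * x = t * (t * x) := by group
        _ = t * (x⁻¹ * t) := by rw [e]
        _ = (t * x * t⁻¹)⁻¹ * (t * t) := by group
        _ = x * (t * t) := by rw [htx, inv_inv]
    rcases hO.comm hc (hN4 _ httN) hx with h | h
    · exact h
    · exact absurd h hx1
  have htinv : t⁻¹ = t := inv_eq_of_mul_eq_one_left htt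
  have htN : t ∉ N := fun h => hgb1 (by rw [← htq]; exact (QuotientGroup.eq_one_iff t).2 h)
  set τ : MulAut N := MulAut.conjNormal t with hτ
  have hτ2 : ∀ n : N, τ (τ n) = n := by
    intro n
    apply Subtype.ext
    simp only [hτ, MulAut.conjNormal_apply]
    calc t * (t * (n : G) * t⁻¹) * t⁻¹ = (t * t) * n * (t * t)⁻¹ := by group
      _ = n := by rw [htt]; simp
  have htxt : t * x * t = x * x := by
    have e : t * x * t = t * x * t⁻¹ := by rw [htinv]
    rw [e, htx]
    have hx' : x * x * x = 1 := by rw [← hx, pow_succ, pow_succ, pow_one]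
    exact inv_eq_of_mul_eq_one_left hx'
  have hτσ : ∀ n : N, τ (σ (τ n)) = σ (σ n) := by
    intro n
    apply Subtype.ext
    simp only [hτ, hσ, MulAut.conjNormal_apply]
    calc t * (x * (t * (n : G) * t⁻¹) * x⁻¹) * t⁻¹
        = (t * x * t) * n * (t * x * t)⁻¹ := by group
      _ = (x * x) * n * (x * x)⁻¹ := by rw [htxt]
      _ = x * (x * (n : G) * x⁻¹) * x⁻¹ := by group
  have hd : ∀ h : N, (τ h * h) ^ 2 = 1 := by
    intro h
    apply Subtype.ext
    simp only [hτ, MulAut.conjNormal_apply, Subgroup.coe_pow, Subgroup.coe_mul, Subgroup.coe_one]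
    have e : t * (h : G) * t⁻¹ * h = (t * h) ^ 2 := by rw [htinv, sq]; group
    rw [e, ← pow_mul]
    rcases hO (t * h) with h4 | h3
    · exact h4
    · exfalso
      apply htN
      have h1 : ((t * h : G) : G ⧸ N) = (t : G ⧸ N) := by
        rw [QuotientGroup.mk_mul, (QuotientGroup.eq_one_iff _).2 h.2, mul_one]
      have e3 : (t : G ⧸ N) ^ 3 = 1 := by rw [← h1, ← QuotientGroup.mk_pow, h3]; rfl
      have e2 : (t : G ⧸ N) ^ 2 = 1 := by rw [htq]; exact hgb2
      exact (QuotientGroup.eq_one_iff t).1 (eq_one_of_pow2_pow3 e2 e3)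
  have he : ∀ h : N, h ^ 4 = 1 := fun h => Subtype.ext (by simpa using hN4 h h.2)
  obtain ⟨hcomm, hsq⟩ := elemAb σ τ hA1 hfp hτ2 hτσ hd he
  exact ⟨⟨⟨hcomm⟩⟩, fun a ha => by simpa using congrArg Subtype.val (hsq ⟨a, ha⟩)⟩

end Cfsg.Agent.Lib.Helper55.OC4
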