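import Mathlib
import Cfsg.Agent.Lib.Lead.OrdTypeStmt

set_option autoImplicit false

/-!
helper55: piece CNTZERO of the lead's S3998 call.
-/

namespace Cfsg.Agent.Lib.Helper55.OrdCNTZERO

open Cfsg.Agent.Lib.Lead.OrdTypeStmt

universe u

theorem main : CntZero.{u} := by
  intro X _ _
  unfold cnt
  have h : rough X 0 = Set.univ := by
    ext x
    simp [rough]
  rw [h]
  exact Nat.card_congr (Equiv.Set.univ X)

end Cfsg.Agent.Lib.Helper55.OrdCNTZERO
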