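import Mathlib
import Cfsg.Agent.Lib.Lead.OrdTypeStmt

set_option autoImplicit false

/-!
helper55: piece SOLVQ of the lead's S3998 call.
-/

namespace Cfsg.Agent.Lib.Helper55.OrdSOLVQ

open Cfsg.Agent.Lib.Lead.OrdTypeStmt

universe u

theorem main : SolvQ.{u} := by
  intro X _ _ p _ N _ hN hQ
  have h1 : Group.IsNilpotent ↥N := hN.isNilpotent
  have h2 : Group.IsSolvable ↥N := inferInstance
  exact Group.isSolvable_of_ker_le_range N.subtype (QuotientGroup.mk' N) (by
    rw [QuotientGroup.ker_mk', Subgroup.range_subtype])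

end Cfsg.Agent.Lib.Helper55.OrdSOLVQ
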