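import Mathlib
import Cfsg.Agent.S1453
import Cfsg.Agent.Lib.Helper55.S53Stmt

set_option autoImplicit false

/-!
helper55: piece NEXHI of S1353.  In a Sylow `r`-subgroup `S` of rank at least 3 with a maximal
elementary abelian subgroup `A` of order `r²`, the subgroup `T = C_S(Ω₁(Z₂(S)))` (S1453) is
normal of index `r` and `A ∩ T = Ω₁(Z(S))`; so a non-central subgroup `X ≤ A` of order `r`
meets `T` trivially.
-/

namespace Cfsg.Agent.Lib.Helper55.S53NEXHI

universe u

open Cfsg.Agent.Lib.Helper55.S53Stmt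

/-- The elements of `Ω₁(Z(R))` are central of order dividing `p`. -/
theorem omega_center {R : Type*} [Group R] (p : ℕ) :
    ∀ z ∈ Subgroup.closure {x : R | x ∈ Subgroup.center R ∧ x ^ p = 1},
      z ∈ Subgroup.center R ∧ z ^ p = 1 := by
  intro z hz
  induction hz using Subgroup.closure_induction with
  | mem y hy => exact hy
  | one => exact ⟨Subgroup.one_mem _, one_pow p⟩
  | mul y z _ _ h1 h2 =>
    refine ⟨Subgroup.mul_mem _ h1.1 h2.1, ?_⟩
    have hc : Commute y z := Subgroup.mem_center_iff.mp h2.1 y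
    rw [hc.mul_pow, h1.2, h2.2, one_mul]
  | inv y _ h1 => exact ⟨Subgroup.inv_mem _ h1.1, by rw [inv_pow, h1.2, inv_one]⟩

theorem main : NExHi.{u} := by
  intro G _ _ hodd A X r hr hAel hAc hAmax hXA hXc S hAS hrk hnc
  have : Fact r.Prime := ⟨hr⟩
  have hr2 : r ≠ 2 := by
    rintro rfl
    have h1 : 2 ∣ Nat.card G := by
      rw [← hXc]; exact Subgroup.card_subgroup_dvd_card X
    exact (Nat.not_even_iff_odd.mpr hodd) (even_iff_two_dvd.mpr h1)
  have hAcomm : ∀ a ∈ A, ∀ b ∈ A, a * b = b * a := fun a ha b hb =>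
    congrArg Subtype.val (isMulCommutative_iff.mp hAel.1 ⟨a, ha⟩ ⟨b, hb⟩)
  -- the subgroup `E` of `S` corresponding to `A`
  have hEel : Cfsg.IsElementaryAbelian r (A.subgroupOf (S : Subgroup G)) := by
    refine ⟨isMulCommutative_iff.mpr (fun a b => ?_), ?_⟩
    · apply Subtype.ext
      apply Subtype.ext
      exact hAcomm _ (Subgroup.mem_subgroupOf.mp a.2) _ (Subgroup.mem_subgroupOf.mp b.2)
    · intro a ha
      apply Subtype.ext
      have := hAel.2 (a : G) (Subgroup.mem_subgroupOf.mp ha)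
      simpa using this
  have hEc : Nat.card (A.subgroupOf (S : Subgroup G)) = r ^ 2 := by
    rw [← hAc]
    exact Nat.card_congr (Subgroup.subgroupOfEquivOfLe hAS).toEquiv
  have hEmax : ∀ B : Subgroup ↥(S : Subgroup G), Cfsg.IsElementaryAbelian r B →
      A.subgroupOf (S : Subgroup G) ≤ B → B = A.subgroupOf (S : Subgroup G) := by
    intro B hB hEB
    have hBcomm : ∀ a ∈ B, ∀ b ∈ B, a * b = b * a := fun a ha b hb =>
      congrArg Subtype.val (isMulCommutative_iff.mp hB.1 ⟨a, ha⟩ ⟨b, hb⟩)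
    have hB' : Cfsg.IsElementaryAbelian r (B.map (S : Subgroup G).subtype) := by
      refine ⟨isMulCommutative_iff.mpr (fun a b => ?_), ?_⟩
      · obtain ⟨a', ha', hae⟩ := a.2
        obtain ⟨b', hb', hbe⟩ := b.2
        apply Subtype.ext
        show (a : G) * (b : G) = (b : G) * (a : G)
        rw [← hae, ← hbe]
        have := hBcomm a' ha' b' hb'
        exact congrArg Subtype.val this
      · rintro _ ⟨a', ha', rfl⟩
        have := hB.2 a' ha'
        have h2 := congrArg Subtype.val this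
        simpa using h2
    have hAB' : A ≤ B.map (S : Subgroup G).subtype := by
      intro a ha
      exact ⟨⟨a, hAS ha⟩, hEB (Subgroup.mem_subgroupOf.mpr ha), rfl⟩
    have hBA := hAmax _ hB' hAB'
    apply le_antisymm _ hEB
    intro b hb
    rw [Subgroup.mem_subgroupOf, ← hBA]
    exact ⟨b, hb, rfl⟩
  obtain ⟨h1, h2, -, h4, h5⟩ := Cfsg.Agent.S1453.result (R := ↥(S : Subgroup G)) r hr2
    S.isPGroup' hrk (A.subgroupOf (S : Subgroup G)) hEel hEc hEmax
  -- `Ω₁(Z(S)) ≤ E ⊓ T`
  have hZE : Subgroup.closure {x : ↥(S : Subgroup G) | x ∈ Subgroup.center ↥(S : Subgroup G) ∧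
      x ^ r = 1} ≤ A.subgroupOf (S : Subgroup G) ⊓ Subgroup.centralizer
        ((Subgroup.closure {x : ↥(S : Subgroup G) |
          x ∈ Subgroup.upperCentralSeries ↥(S : Subgroup G) 2 ∧ x ^ r = 1} :
            Subgroup ↥(S : Subgroup G)) : Set ↥(S : Subgroup G)) := by
    intro z hz
    obtain ⟨hzc, hzr⟩ := omega_center r z hz
    refine ⟨?_, ?_⟩
    · exact Cfsg.Agent.S1453.mem_of_comm_of_max r _ hEel hEmax z
        (fun a _ => Subgroup.mem_center_iff.mp hzc a) hzr
    · exact Subgroup.mem_centralizer_iff.mpr (fun w _ => Subgroup.mem_center_iff.mp hzc w)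
  -- `E ⊓ T = Ω₁(Z(S))`
  have hcardET : Nat.card ↥(A.subgroupOf (S : Subgroup G) ⊓ Subgroup.centralizer
        ((Subgroup.closure {x : ↥(S : Subgroup G) |
          x ∈ Subgroup.upperCentralSeries ↥(S : Subgroup G) 2 ∧ x ^ r = 1} :
            Subgroup ↥(S : Subgroup G)) : Set ↥(S : Subgroup G))) = r := by
    have hdvd : Nat.card ↥(A.subgroupOf (S : Subgroup G) ⊓ Subgroup.centralizer
        ((Subgroup.closure {x : ↥(S : Subgroup G) |
          x ∈ Subgroup.upperCentralSeries ↥(S : Subgroup G) 2 ∧ x ^ r = 1} :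
            Subgroup ↥(S : Subgroup G)) : Set ↥(S : Subgroup G))) ∣ r ^ 2 := by
      rw [← hEc]; exact Subgroup.card_dvd_of_le inf_le_left
    obtain ⟨i, hi, hci⟩ := (Nat.dvd_prime_pow hr).mp hdvd
    have hge : r ≤ Nat.card ↥(A.subgroupOf (S : Subgroup G) ⊓ Subgroup.centralizer
        ((Subgroup.closure {x : ↥(S : Subgroup G) |
          x ∈ Subgroup.upperCentralSeries ↥(S : Subgroup G) 2 ∧ x ^ r = 1} :
            Subgroup ↥(S : Subgroup G)) : Set ↥(S : Subgroup G))) := by
      exact le_of_eq_of_le h2.symm (Subgroup.card_le_of_le hZE)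
    have hi' : i = 0 ∨ i = 1 ∨ i = 2 := by omega
    rcases hi' with rfl | rfl | rfl
    · rw [pow_zero] at hci
      have := hr.two_le
      omega
    · rw [hci, pow_one]
    · exfalso
      apply h1
      have : A.subgroupOf (S : Subgroup G) ⊓ Subgroup.centralizer
        ((Subgroup.closure {x : ↥(S : Subgroup G) |
          x ∈ Subgroup.upperCentralSeries ↥(S : Subgroup G) 2 ∧ x ^ r = 1} :
            Subgroup ↥(S : Subgroup G)) : Set ↥(S : Subgroup G)) = A.subgroupOf (S : Subgroup G) :=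
        Subgroup.eq_of_le_of_card_ge inf_le_left (by rw [hci, hEc])
      rw [← this]; exact inf_le_right
  have hET : Subgroup.closure {x : ↥(S : Subgroup G) | x ∈ Subgroup.center ↥(S : Subgroup G) ∧
      x ^ r = 1} = A.subgroupOf (S : Subgroup G) ⊓ Subgroup.centralizer
        ((Subgroup.closure {x : ↥(S : Subgroup G) |
          x ∈ Subgroup.upperCentralSeries ↥(S : Subgroup G) 2 ∧ x ^ r = 1} :
            Subgroup ↥(S : Subgroup G)) : Set ↥(S : Subgroup G)) :=
    Subgroup.eq_of_le_of_card_ge hZE (by rw [hcardET, h2])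
  have hTn : (Subgroup.centralizer
        ((Subgroup.closure {x : ↥(S : Subgroup G) |
          x ∈ Subgroup.upperCentralSeries ↥(S : Subgroup G) 2 ∧ x ^ r = 1} :
            Subgroup ↥(S : Subgroup G)) : Set ↥(S : Subgroup G))).Normal :=
    Subgroup.normal_of_characteristic _
  refine ⟨(Subgroup.centralizer
        ((Subgroup.closure {x : ↥(S : Subgroup G) |
          x ∈ Subgroup.upperCentralSeries ↥(S : Subgroup G) 2 ∧ x ^ r = 1} :
            Subgroup ↥(S : Subgroup G)) : Set ↥(S : Subgroup G))).map (S : Subgroup G).subtype,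
    Subgroup.map_subtype_le _, ?_, ?_, ?_⟩
  · intro s hs
    rw [Subgroup.mem_normalizer_iff]
    intro n
    constructor
    · rintro ⟨t, ht, rfl⟩
      exact ⟨⟨s, hs⟩ * t * ⟨s, hs⟩⁻¹, hTn.conj_mem t ht ⟨s, hs⟩, rfl⟩
    · rintro ⟨t, ht, hte⟩
      refine ⟨⟨s, hs⟩⁻¹ * t * ⟨s, hs⟩⁻¹⁻¹, hTn.conj_mem t ht _, ?_⟩
      simp only [Subgroup.coe_subtype, Subgroup.coe_mul, Subgroup.coe_inv, inv_inv] at hte ⊢
      rw [hte]; group
  · rw [Subgroup.relIndex, Subgroup.subgroupOf,
      Subgroup.comap_map_eq_self_of_injective (Subgroup.subtype_injective _)]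
    exact h5
  · rw [eq_bot_iff]
    intro x hx
    rw [Subgroup.mem_bot]
    by_contra hx1
    obtain ⟨hxX, t, ht, hte⟩ := hx
    apply hnc
    -- `t` is central in `S`
    have htE : t ∈ A.subgroupOf (S : Subgroup G) := by
      rw [Subgroup.mem_subgroupOf]
      have : (t : G) = x := hte
      rw [this]; exact hXA hxX
    have htZ : t ∈ Subgroup.closure {x : ↥(S : Subgroup G) |
        x ∈ Subgroup.center ↥(S : Subgroup G) ∧ x ^ r = 1} := by
      rw [hET]; exact ⟨htE, ht⟩
    have htc := (omega_center r t htZ).1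
    have hxc : ∀ s ∈ (S : Subgroup G), s * x = x * s := by
      intro s hs
      have h := Subgroup.mem_center_iff.mp htc ⟨s, hs⟩
      have h' := congrArg Subtype.val h
      have : (t : G) = x := hte
      simpa [this] using h'
    -- `X` is generated by `x`
    have hgen : Subgroup.zpowers (⟨x, hxX⟩ : X) = ⊤ :=
      zpowers_eq_top_of_prime_card hXc (fun h => hx1 (congrArg Subtype.val h))
    intro s hs
    rw [Subgroup.mem_centralizer_iff]
    intro y hy
    have hy' : (⟨y, hy⟩ : X) ∈ Subgroup.zpowers (⟨x, hxX⟩ : X) := by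
      rw [hgen]; exact Subgroup.mem_top _
    obtain ⟨n, hn⟩ := Subgroup.mem_zpowers_iff.mp hy'
    have hyx : y = x ^ n := by
      have := congrArg Subtype.val hn
      simpa using this.symm
    rw [hyx]
    have hcm : Commute s x := hxc s hs
    exact (hcm.zpow_right n).eq.symm

end Cfsg.Agent.Lib.Helper55.S53NEXHI
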