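import Mathlib
import Cfsg.Agent.Lib.Helper55.S66Stmt
import Cfsg.Agent.Lib.Helper90.Conj

/-!
helper55: piece PART of the S1366 call (glue of PARTHS, PARTA, PARTD, PARTB).
-/

set_option autoImplicit false

namespace Cfsg.Agent.Lib.Helper55.S66PART

open Cfsg.Agent.Lib.Helper55.S66Stmt

universe u

/-- elements of a cyclic subgroup commute. -/
theorem comm_of_cyclic {G : Type u} [Group G] {K : Subgroup G} (hK : IsCyclic K) {a b : G}
    (ha : a ∈ K) (hb : b ∈ K) : a * b = b * a := by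
  obtain ⟨g₀, hg₀⟩ := hK.exists_generator
  obtain ⟨i, hi⟩ := Subgroup.mem_zpowers_iff.mp (hg₀ ⟨a, ha⟩)
  obtain ⟨j, hj⟩ := Subgroup.mem_zpowers_iff.mp (hg₀ ⟨b, hb⟩)
  have h1 : (⟨a, ha⟩ : K) * ⟨b, hb⟩ = ⟨b, hb⟩ * ⟨a, ha⟩ := by
    rw [← hi, ← hj, ← zpow_add, ← zpow_add, add_comm]
  exact congrArg Subtype.val h1

/-- `K ≤ N_G(Y)` for `Y ≤ K`, `K` cyclic. -/
theorem le_normalizer_of_cyclic {G : Type u} [Group G] {K Y : Subgroup G} (hK : IsCyclic K)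
    (hYK : Y ≤ K) : K ≤ Subgroup.normalizer (Y : Set G) := by
  apply Cfsg.Agent.Lib.Helper90.Conj.le_normalizer_of_conj
  intro k hk y hy
  have h2 : k * y * k⁻¹ = y := by
    rw [comm_of_cyclic hK hk (hYK hy)]
    group
  rw [h2]
  exact hy

theorem main (hHS : PartHS.{u}) (hA : PartA.{u}) (hD : PartD.{u}) (hB : PartB.{u}) :
    Part.{u} := by
  intro G _ _ hG M K U hM hKU q hq hqK
  obtain ⟨Y, H, hps⟩ := hHS hG M K U hM hKU q hq hqK
  obtain ⟨K2, hK2, hKsK2⟩ := hA hG M K U Y H q hps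
  have hd := hD hG M K U Y H q hps
  obtain ⟨hMem, hK2s⟩ := hB hG M K U Y H q hps K2 hK2 hKsK2 hd
  exact ⟨H, K2, hMem, hps.hs.hrH, hKsK2, hK2s,
    (le_normalizer_of_cyclic hKU.cyclic hps.hYK).trans hps.hs.hN⟩

end Cfsg.Agent.Lib.Helper55.S66PART
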