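import Mathlib
import Cfsg.Prelude.Def_OddOrderLocal

set_option autoImplicit false

/-!
# S1372 (`M = K U M_σ`, `K ≠ 1`, `U ≠ 1`: `|K|` prime, `F(M)` a TI-subset, `M_σ ≤ F(M)`):
statements of the pieces (helper55)

`|K|` prime is `Cfsg.Agent.Lib.Helper55.S66KPR.main hG M K U hM hKU hK1 hU1` (landed).
`M_σ` is nilpotent: `Cfsg.Agent.Lib.Helper22.BG147N0.nilpotent_of_U_ne_bot hG hM hKU hU1`.

Route for TI.  Let `g ∉ N_G(F(M))` (so `g ∉ M`), `1 ≠ x ∈ F(M)`, `g x g⁻¹ ∈ F(M)`; replace `x` by a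
power `x₀` of prime order `q`.
* `q ∈ σ(M)`: `x₀ ∈ M_σ`, `C_G(x₀) ≤ M` (`CentIn`), so `g ∈ M` by
  `Cfsg.Agent.Lib.Helper90.FamCount.fus_prime`.
* `q ∉ σ(M)`: `x₀` and `g x₀ g⁻¹` centralize `M_σ` (`CentSig`), `C_G(x₀) ≤ M` (`CentOut`), so
  `g⁻¹ M_σ g ≤ M`, and `fus_prime` for an element of prime order of `M_σ` (with `CentIn`) gives
  `g⁻¹ ∈ M`.
-/

namespace Cfsg.Agent.Lib.Helper55.S72Stmt

universe u

/-- VEX (pure): in a nilpotent subgroup `S`, an element `x` of prime order `q` is centralized by a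
nontrivial elementary abelian `q`-subgroup `V` of `S` that is invariant under `N_G(S)`.
(`V := {z ∈ S | z ^ q = 1 ∧ ∀ y ∈ S, (∃ n, y ^ q ^ n = 1) → z * y = y * z}`: a subgroup (two of its
elements commute, so `(z₁ z₂) ^ q = 1`), commutative, of exponent `q`, invariant under `N_G(S)`,
centralizing `x` (as `x ^ q = 1`).  `V ≠ ⊥`: `S` nilpotent, so its Sylow `q`-subgroup `Q` is
normal (`isNilpotent_of_finite_tfae`, fourth item) and contains every `y ∈ S` of `q`-power order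
(`IsPGroup.exists_le_sylow` for `zpowers y` in `↥S` and `Sylow.subsingleton_of_normal`, or
conjugacy); `Q ≠ ⊥` (`x`), so its centre is nontrivial (`IsPGroup.center_nontrivial`) and has an
element of order `q` (Cauchy, `exists_prime_orderOf_dvd_card`), which lies in `V`.) -/
def VEx : Prop :=
  ∀ {G : Type u} [Group G] [Finite G] (S : Subgroup G), Group.IsNilpotent S →
  ∀ x ∈ S, ∀ q : ℕ, q.Prime → orderOf x = q →
  ∃ V : Subgroup G, V ≤ S ∧ V ≠ ⊥ ∧ IsMulCommutative V ∧ (∀ v ∈ V, v ^ q = 1) ∧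
    Subgroup.normalizer (S : Set G) ≤ Subgroup.normalizer (V : Set G) ∧
    V ≤ Subgroup.centralizer ({x} : Set G)

/-- FROBV: `|V| = |C_V(K)| ^ |K|` for `1 ≠ V ≤ M_σ` normalized by `U` and `K`.
(Copy of `Cfsg.Agent.Lib.Helper69.S66N1.main` (its lines 73-139, with
`hPrim := Cfsg.Agent.Lib.Helper55.S66PRIM.main`) with `M_σ` replaced by `V` in the call of
`Cfsg.Agent.S1446.result U K V ...`, second clause: `V` nilpotent
(`Cfsg.Agent.Lib.Helper70.PNilp.nilpotent_of_le`), `|V| ∣ |M_σ|` for `hcop`,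
`V ⊓ C(U) ≤ M_σ ⊓ C(U) = ⊥`, `V ⊓ C({k}) ≤ V ⊓ C(K)` from the same for `M_σ`.) -/
def FrobV : Prop :=
  ∀ {G : Type u} [Group G] [Finite G], Cfsg.IsMinSimpleOddOrder G →
  ∀ (M K U : Subgroup G), IsCoatom M → Cfsg.IsSigmaDecomposition M K U → K ≠ ⊥ → U ≠ ⊥ →
  ∀ V : Subgroup G, V ≤ Cfsg.sigmaCore M → V ≠ ⊥ →
    U ≤ Subgroup.normalizer (V : Set G) → K ≤ Subgroup.normalizer (V : Set G) →
    Nat.card V = Nat.card ↥(V ⊓ Subgroup.centralizer (K : Set G)) ^ Nat.card K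

/-- CENTIN: `C_G(x) ≤ M` for `x ∈ M_σ` of prime order `q`.
(Else `Cfsg.Agent.Lib.Helper73.BG14Final.gen hG M hM x hx hx1 h` gives a maximal `N ≥ C_G(x)`
with `q ∈ τ₂(N)`, so `PRankLE q 2 N`.  `VEx` for `S := M_σ` gives `V ≤ C_G(x) ≤ N`, normalized by
`M ≥ U, K`; `FrobV`: `|V| = c ^ |K|` with `c = |C_V(K)| > 1` dividing a power of `q`, so `c ≥ q`,
and `|K|` is an odd prime, so `|V| ≥ q ^ 3`: contradiction with `PRankLE q 2 N` for
`V.subgroupOf N`.) -/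
def CentIn : Prop :=
  ∀ {G : Type u} [Group G] [Finite G], Cfsg.IsMinSimpleOddOrder G →
  ∀ (M K U : Subgroup G), IsCoatom M → Cfsg.IsSigmaDecomposition M K U → K ≠ ⊥ → U ≠ ⊥ →
  ∀ x ∈ Cfsg.sigmaCore M, ∀ q : ℕ, q.Prime → orderOf x = q →
    Subgroup.centralizer ({x} : Set G) ≤ M

/-- SIGF: `M_σ ≤ F(M)`.  (`M_σ` nilpotent and normal in `M`:
`Cfsg.Agent.Lib.Helper71.Fitting.le_fitting`.) -/
def SigF : Prop :=
  ∀ {G : Type u} [Group G] [Finite G], Cfsg.IsMinSimpleOddOrder G →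
  ∀ (M K U : Subgroup G), IsCoatom M → Cfsg.IsSigmaDecomposition M K U → K ≠ ⊥ → U ≠ ⊥ →
    Cfsg.sigmaCore M ≤ Cfsg.fittingOf M

/-- CENTSIG: `x ∈ F(M)` of prime order `q ∉ σ(M)` centralizes `M_σ`.
(`F(M)` nilpotent (`Cfsg.Agent.Lib.Helper71.Fitting.fitting_isNilpotent`), `M_σ ≤ F(M)` (`SigF`),
`q ∤ |M_σ|` (`Cfsg.Agent.Lib.Helper9.BG11b.not_dvd_sigmaCore`),
`Cfsg.Agent.Lib.Helper10.KW0.commute_of_coprime`.) -/
def CentSig : Prop :=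
  ∀ {G : Type u} [Group G] [Finite G], Cfsg.IsMinSimpleOddOrder G →
  ∀ (M K U : Subgroup G), IsCoatom M → Cfsg.IsSigmaDecomposition M K U → K ≠ ⊥ → U ≠ ⊥ →
  ∀ x ∈ Cfsg.fittingOf M, ∀ q : ℕ, q.Prime → orderOf x = q → q ∉ Cfsg.sigma M →
    Cfsg.sigmaCore M ≤ Subgroup.centralizer ({x} : Set G)

/-- NOKAP: the prime order `q ∉ σ(M)` of an element `x` of `F(M)` is not in `κ(M)`.
(If `q ∈ κ(M)`: `zpowers x` lies in a Hall `κ(M)`-subgroup of `M`, which is `M`-conjugate to `K`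
(`Cfsg.Agent.S3745.result ⊥ M _ _ hsolv (Cfsg.kappa M)`, clauses 3 and 2 with `A := ⊥`; `M`
solvable: `Cfsg.Agent.Lib.Helper9.BG10a.isSolvable_of_ne_top hG hM.1`), so `k := c x c⁻¹ ∈ K` for
some `c ∈ M`; `k ∈ F(M)` (normal in `M`: `Cfsg.Agent.Lib.Helper9.BG11b.le_normalizer_map_subtype`),
of order `q`, so `M_σ ≤ C_G(k)` (`CentSig`), hence `M_σ ≤ C_G(K)` by the prime action
(`Cfsg.Agent.Lib.Helper55.S66PRIM.main hG M K U hM hKU`, clauses 2 and 3: `g ∈ M_σ` commutes with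
`k`, so `g ∈ K ⊔ Ks`, so `g ∈ Ks = M_σ ⊓ C(K)`); `M_σ ≠ ⊥` (clause 1).  `FrobV` for `V := M_σ`:
`|M_σ| = |M_σ| ^ |K|` with `|K| ≥ 2`, `|M_σ| > 1`: contradiction.) -/
def NoKap : Prop :=
  ∀ {G : Type u} [Group G] [Finite G], Cfsg.IsMinSimpleOddOrder G →
  ∀ (M K U : Subgroup G), IsCoatom M → Cfsg.IsSigmaDecomposition M K U → K ≠ ⊥ → U ≠ ⊥ →
  ∀ x ∈ Cfsg.fittingOf M, ∀ q : ℕ, q.Prime → orderOf x = q → q ∉ Cfsg.sigma M →
    q ∉ Cfsg.kappa M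

/-- CENTOUT: `C_G(x) ≤ M` for `x ∈ F(M)` of prime order `q ∉ σ(M)`.
(`a ∈ M_σ`, `a ≠ 1`; `x ∈ M ⊓ C_G(a)` (`CentSig`); `Cfsg.Agent.S1432.result hG M hM a _ _ x _ _ _`:
the `κ` alternative contradicts `NoKap`, the `τ₂` alternative contains `C_G(x) ≤ M`.) -/
def CentOut : Prop :=
  ∀ {G : Type u} [Group G] [Finite G], Cfsg.IsMinSimpleOddOrder G →
  ∀ (M K U : Subgroup G), IsCoatom M → Cfsg.IsSigmaDecomposition M K U → K ≠ ⊥ → U ≠ ⊥ →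
  ∀ x ∈ Cfsg.fittingOf M, ∀ q : ℕ, q.Prime → orderOf x = q → q ∉ Cfsg.sigma M →
    Subgroup.centralizer ({x} : Set G) ≤ M

/-- TI: `F(M)` is a TI-subset (see the header). -/
def TI : Prop :=
  ∀ {G : Type u} [Group G] [Finite G], Cfsg.IsMinSimpleOddOrder G →
  ∀ (M K U : Subgroup G), IsCoatom M → Cfsg.IsSigmaDecomposition M K U → K ≠ ⊥ → U ≠ ⊥ →
    Cfsg.IsTISubset (Cfsg.fittingOf M : Set G)

end Cfsg.Agent.Lib.Helper55.S72Stmt
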